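import Cfsg.Agent.J4.J
import Cfsg.Agent.Loc.Dih

/-! The configuration that arises when a subgroup of a Sylow subgroup is not strongly closed. -/

set_option autoImplicit false
set_option linter.unusedSectionVars false

namespace CF.RF
open Cfsg Subgroup CF.Loc CF.LX CF.J4
open scoped commutatorElement

variable {G : Type*} [Group G]

/-- the elements commuting with `b` modulo `I` -/
def cm (I : Subgroup G) (b : G) : Subgroup G where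
  carrier := {g | g ∈ 𝐍(I) ∧ ⁅g, b⁆ ∈ I}
  one_mem' := ⟨one_mem _, by simp⟩
  mul_mem' := fun {a c} ha hc => ⟨mul_mem ha.1 hc.1, by
    rw [show ⁅a * c, b⁆ = a * ⁅c, b⁆ * a⁻¹ * ⁅a, b⁆ by simp only [commutatorElement_def]; group]
    exact mul_mem (norm_mem' ha.1 hc.2) ha.2⟩
  inv_mem' := fun {a} ha => ⟨inv_mem ha.1, by
    rw [show ⁅a⁻¹, b⁆ = a⁻¹ * ⁅a, b⁆⁻¹ * a by simp only [commutatorElement_def]; group]
    exact norm_mem ha.1 (inv_mem ha.2)⟩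

theorem cm_symm {I : Subgroup G} {a b : G} (h : ⁅a, b⁆ ∈ I) : ⁅b, a⁆ ∈ I := by
  simpa using inv_mem h

theorem cm_cj {I : Subgroup G} {a b g : G} (hg : g ∈ 𝐍(I)) (h : ⁅a, b⁆ ∈ I) : ⁅g * a * g⁻¹, g * b * g⁻¹⁆ ∈ I := by
  rw [← conjugate_commutatorElement]; exact norm_mem' hg h

theorem cm_one {I : Subgroup G} {a b : G} (h : a * b = b * a) : ⁅a, b⁆ ∈ I := by
  rw [commutatorElement_eq_one_iff_mul_comm.2 h]; exact one_mem I

theorem cm_l {I : Subgroup G} {a b : G} (ha : a ∈ I) (hb : b ∈ 𝐍(I)) : ⁅a, b⁆ ∈ I := by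
  rw [show ⁅a, b⁆ = a * (b * a⁻¹ * b⁻¹) by simp only [commutatorElement_def]; group]
  exact mul_mem ha (norm_mem' hb (inv_mem ha))

theorem cm_r {I : Subgroup G} {a b : G} (ha : a ∈ 𝐍(I)) (hb : b ∈ I) : ⁅a, b⁆ ∈ I := cm_symm (cm_l hb ha)

theorem exists_fix [Finite G] {D I C : Subgroup G} (pD : IsPGroup 2 D) (lC : C ≤ D) (lI : I ≤ C) (nI : D ≤ 𝐍(I))
    (nC : D ≤ 𝐍(C)) (h : ¬ C ≤ I) : ∃ a ∈ C, a ∉ I ∧ ∀ d ∈ D, ⁅d, a⁆ ∈ I := by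
  have : Fact (Nat.Prime 2) := ⟨Nat.prime_two⟩
  have : (I.subgroupOf D).Normal := normal_subgroupOf_of_le_normalizer nI
  let q := QuotientGroup.mk' (I.subgroupOf D)
  have sj := QuotientGroup.mk'_surjective (I.subgroupOf D)
  have := normal_subgroupOf_of_le_normalizer nC
  have pq : IsPGroup 2 (D ⧸ I.subgroupOf D) := pD.to_quotient _
  have n := (inferInstance : (C.subgroupOf D).Normal).map q sj
  obtain ⟨a, ⟨⟨b, hb, rfl⟩, h2⟩, h3⟩ := (bot_or_exists_ne_one _).resolve_left (inf_centralizer_ne_bot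
    (Q := (C.subgroupOf D).map q) (T := ⊤) (pq.to_subgroup _) (pq.to_subgroup _)
    (fun g _ => by rw [normalizer_eq_top]; trivial) fun e => h fun c hc => by
      have : q ⟨c, lC hc⟩ ∈ (C.subgroupOf D).map q := mem_map_of_mem _ hc
      rw [e, mem_bot] at this
      exact (QuotientGroup.eq_one_iff (N := I.subgroupOf D) _).1 this)
  refine ⟨b, hb, fun e => h3 ((QuotientGroup.eq_one_iff _).2 e), fun d hd => ?_⟩
  have := commutatorElement_eq_one_iff_mul_comm.2 (h2 (q ⟨d, hd⟩) trivial)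
  rw [← map_commutatorElement] at this
  exact (QuotientGroup.eq_one_iff (N := I.subgroupOf D) _).1 this

/-- the first part of the configuration -/
structure Cf0 (T V D : Subgroup G) (x v : G) : Prop where
  ea : EA V
  pT : IsPGroup 2 T
  VT : V ≤ T
  TV : T ≤ 𝐍(V)
  DT : D ≤ T
  xD : x ∈ 𝐍(D)
  odd : Odd (orderOf x)
  vV : v ∈ V
  vD : v ∈ 𝐍(D)
  inv : v * x * v⁻¹ = x⁻¹
  nc : x ∉ 𝐂(D)

/-- the conjugate of `D ⊓ V` -/
abbrev W1 (V D : Subgroup G) (x : G) : Subgroup G := cj[x] (D ⊓ V)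
/-- the intersection -/
abbrev II (V D : Subgroup G) (x : G) : Subgroup G := D ⊓ V ⊓ W1 V D x
/-- the product -/
abbrev BB (V D : Subgroup G) (x : G) : Subgroup G := D ⊓ V ⊔ W1 V D x

namespace Cf0
variable [Finite G] {T V D : Subgroup G} {x v : G} (h : Cf0 T V D x v)
include h

theorem vv : v * v = 1 := h.ea v h.vV
theorem vi : v⁻¹ = v := h.ea.inv h.vV
theorem nV : D ≤ 𝐍(D ⊓ V) := le_normalizer_inf le_normalizer (h.DT.trans h.TV)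
theorem WD : W1 V D x ≤ D := cj_le_of_mem_normalizer h.xD inf_le_left
theorem nW : D ≤ 𝐍(W1 V D x) := by
  rw [← cj_normalizer, le_cj_iff, cj_eq_self (inv_mem h.xD)]; exact h.nV
theorem nI : D ≤ 𝐍(II V D x) := le_normalizer_inf h.nV h.nW
theorem nB : D ≤ 𝐍(BB V D x) := le_normalizer_sup h.nV h.nW
theorem BD : BB V D x ≤ D := sup_le inf_le_left h.WD
theorem eW : EA (cj[x] V) := h.ea.cj x
theorem WW : W1 V D x ≤ cj[x] V := cj_mono x inf_le_right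
theorem mI {a : G} (h1 : a ∈ W1 V D x) (h2 : a ∈ V) : a ∈ II V D x := ⟨⟨h.WD h1, h2⟩, h1⟩
theorem cI {c : G} (hc : c ∈ V) : c ∈ 𝐂(II V D x) := fun a ha => h.ea.comm a ha.1.2 c hc
theorem cI' {c : G} (hc : c ∈ cj[x] V) : c ∈ 𝐂(II V D x) := fun a ha => h.eW.comm a (h.WW ha.2) c hc
theorem v'W : x * v * x⁻¹ ∈ cj[x] V := conj_mem_cj x h.vV
theorem v'D : x * v * x⁻¹ ∈ 𝐍(D) := mul_mem (mul_mem h.xD h.vD) (inv_mem h.xD)

theorem mem_x {K : Subgroup G} (h1 : v ∈ K) (h2 : x * v * x⁻¹ ∈ K) : x ∈ K := by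
  refine mem_of_pow_mem_of_coprime (n := 2) (Nat.coprime_two_right.2 h.odd) ?_
  have := mul_mem h2 h1
  rwa [← h.inv, h.vi, show x * v * (v * x * v) * v = x * (v * v) * x * (v * v) by group, h.vv, mul_one, mul_one,
    ← pow_two] at this

theorem xI : x ∈ 𝐂(II V D x) := h.mem_x (h.cI h.vV) (h.cI' h.v'W)

theorem cV {c d : G} (hc : c ∈ V) (n : c ∈ 𝐍(D)) (hd : d ∈ D) : ⁅c, d⁆ ∈ D ⊓ V :=
  ⟨cm_r n hd, cm_l hc (h.TV (h.DT hd))⟩

theorem cW {d : G} (hd : d ∈ D) : ⁅x * v * x⁻¹, d⁆ ∈ W1 V D x := by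
  have := conj_mem_cj x (h.cV h.vV h.vD (norm_mem h.xD hd))
  rwa [conjugate_commutatorElement, show x * (x⁻¹ * d * x) * x⁻¹ = d by group] at this

theorem nB' {g : G} (hg : ∀ d ∈ D, ⁅g, d⁆ ∈ BB V D x) : g ∈ 𝐍(BB V D x) :=
  mem_normalizer_of_conj_mem fun b hb => by
    simpa [commutatorElement_def] using mul_mem (hg b (h.BD hb)) hb

theorem cB {c : G} (hc : c ∈ V) (n : c ∈ 𝐍(D)) : c ∈ 𝐍(BB V D x) := h.nB' fun _ hd => mem_sup_left (h.cV hc n hd)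

theorem v'B : x * v * x⁻¹ ∈ 𝐍(BB V D x) := h.nB' fun _ hd => mem_sup_right (h.cW hd)

theorem xB {d : G} (hd : d ∈ D) : ⁅x, d⁆ ∈ BB V D x :=
  (h.mem_x (K := cm _ d) ⟨h.cB h.vV h.vD, mem_sup_left (h.cV h.vV h.vD hd)⟩ ⟨h.v'B, mem_sup_right (h.cW hd)⟩).2

theorem xB' : x ∈ 𝐍(BB V D x) := h.nB' fun _ => h.xB

theorem VW {a b : G} (ha : a ∈ D ⊓ V) (hb : b ∈ W1 V D x) : ⁅a, b⁆ ∈ II V D x :=
  ⟨cm_l ha (h.nV (h.WD hb)), cm_r (h.nW ha.1) hb⟩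

theorem inj {w : G} (hw : w ∈ W1 V D x) (e : ⁅v, w⁆ ∈ II V D x) : w ∈ V := by
  have n : 𝐂(II V D x) ≤ 𝐍(II V D x) := centralizer_le_normalizer _
  have k := (inv_mem (h.mem_x (K := cm _ w) ⟨n (h.cI h.vV), e⟩
    ⟨n (h.cI' h.v'W), cm_one (h.eW.comm _ h.v'W _ (h.WW hw))⟩)).2
  have m : x⁻¹ * w * x ∈ II V D x := ⟨mem_cj.1 hw, by simpa [commutatorElement_def] using mul_mem k.2 hw⟩
  have := h.xI _ m
  rw [show w = x * (x⁻¹ * w * x) * x⁻¹ by group, ← this, mul_inv_cancel_right]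
  exact m.1.2

theorem inj' {y : G} (hy : y ∈ D ⊓ V) (e : ⁅x * v * x⁻¹, y⁆ ∈ II V D x) : y ∈ II V D x := by
  have n : 𝐂(II V D x) ≤ 𝐍(II V D x) := centralizer_le_normalizer _
  have k := (h.mem_x (K := cm _ y) ⟨n (h.cI h.vV), cm_one (h.ea.comm _ h.vV _ hy.2)⟩ ⟨n (h.cI' h.v'W), e⟩).2
  have m : x * y * x⁻¹ ∈ II V D x := ⟨by simpa [commutatorElement_def] using mul_mem k.1 hy, conj_mem_cj x hy⟩
  have := h.xI _ m
  rw [show y = x⁻¹ * (x * y * x⁻¹ * x) by group, this, inv_mul_cancel_left]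
  exact m

theorem uu : x * v * (x * v) = 1 := by
  rw [show x * v * (x * v) = x * (v * x * v⁻¹) * (v * v) by group, h.inv, h.vv]; group

theorem uD : x * v ∈ 𝐍(D) := mul_mem h.xD h.vD

theorem u1 : cj[x * v] (D ⊓ V) = W1 V D x := by
  rw [cj_mul, cj_eq_self (H := D ⊓ V) (le_normalizer_inf (L := zpowers v) (zpowers_le.2 h.vD)
    (zpowers_le.2 (le_normalizer h.vV)) (mem_zpowers v))]

theorem u2 : cj[x * v] (W1 V D x) = D ⊓ V := by rw [← h.u1, ← cj_mul, h.uu, cj_one]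

theorem uI : x * v ∈ 𝐂(II V D x) := mul_mem h.xI (h.cI h.vV)

theorem uB : x * v ∈ 𝐍(BB V D x) := mul_mem h.xB' (h.cB h.vV h.vD)

theorem not_le : ¬ W1 V D x ≤ V := fun l => h.nc fun d hd => by
  have e : W1 V D x = D ⊓ V := eq_of_le_of_card_ge (le_inf h.WD l) (card_cj x _).ge
  have m : ⁅x, d⁆ ∈ II V D x := by simpa only [II, BB, e, sup_idem, inf_idem] using h.xB hd
  refine (mem_c1.1 (mem_of_pow_mem_of_coprime (K := 𝐂₁(d)) (n := 2) (Nat.coprime_two_right.2 h.odd) (mem_c1.2 ?_))).symm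
  have k := h.xI _ m
  have s := h.ea _ m.1.2
  generalize hc : ⁅x, d⁆ = c at k s
  have e1 : x * d = c * d * x := by rw [← hc, commutatorElement_def]; group
  rw [pow_two, mul_assoc, e1, ← mul_assoc, ← mul_assoc, ← k, mul_assoc c, e1, ← mul_assoc, ← mul_assoc, s]
  group

theorem exB {b : G} (hb : b ∈ BB V D x) : ∃ y ∈ D ⊓ V, ∃ w ∈ W1 V D x, y * w = b :=
  (mem_sup_of_le_normalizer (h.WD.trans h.nV)).1 hb

theorem key0 {c a r : G} {m : ℕ} (hc : c ∈ V) (n : c ∈ 𝐍(D)) (er : r = c * (x * v * x⁻¹)) (o : Odd m) (e : r ^ m ∈ D)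
    (ha : a ∈ W1 V D x) (aV : a ∉ V) (h1 : ∀ d ∈ D, ⁅d, a⁆ ∈ II V D x) : ⁅c, a⁆ ∉ II V D x := fun h2 => by
  obtain ⟨j, rfl⟩ := o
  have nn : 𝐂(II V D x) ≤ 𝐍(II V D x) := centralizer_le_normalizer _
  have cc := h.ea c hc
  have v2 := h.eW _ h.v'W
  have c1 := h.cI' h.v'W
  have c2 := h.v'D
  have c3 := h.v'B
  have c4 := fun y => h.inj' (y := y)
  have c5 := fun w hw => h.eW.comm _ h.v'W w (h.WW hw)
  generalize x * v * x⁻¹ = v' at *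
  have e1 : v' * r * v'⁻¹ = r⁻¹ := by
    rw [er, mul_inv_rev, inv_eq_of_mul_eq_one_right cc, inv_eq_of_mul_eq_one_right v2, mul_assoc, mul_assoc, v2, mul_one]
  have e2 : v' = r ^ j * c * (r ^ j)⁻¹ * (r ^ j * r ^ (2 * j + 1) * (r ^ j)⁻¹) := by
    have a1 : v' * r ^ j * v'⁻¹ = (r ^ j)⁻¹ := by rw [← conj_pow, e1, inv_pow]
    have a2 : c * r = v' := by rw [er, ← mul_assoc, cc, one_mul]
    calc v' = r ^ j * (v' * r ^ j * v'⁻¹) * v' := by rw [a1]; group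
      _ = r ^ j * (c * r) * r ^ j := by rw [a2]; group
      _ = _ := by group
  have g1 : r ^ j ∈ 𝐍(D) := pow_mem (er ▸ mul_mem n c2) j
  have g2 : r ^ j ∈ 𝐍(II V D x) := pow_mem (er ▸ nn (mul_mem (h.cI hc) c1)) j
  have g3 : r ^ j ∈ 𝐍(BB V D x) := pow_mem (er ▸ mul_mem (h.cB hc n) c3) j
  generalize r ^ j = g at *
  generalize r ^ (2 * j + 1) = d at *
  set F := BB V D x ⊓ secCent D (II V D x)
  have cF : ∀ k ∈ 𝐍(D), k ∈ 𝐍(II V D x) → k ∈ 𝐍(BB V D x) → ∀ b ∈ F, k * b * k⁻¹ ∈ F := fun k k1 k2 k3 b hb =>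
    ⟨norm_mem' k3 hb.1, h.nI (h.BD (norm_mem' k3 hb.1)), fun d hd => by
      simpa [mul_assoc] using cm_cj k2 (hb.2.2 _ (norm_mem k1 hd))⟩
  have l1 : cj[x * v * g] (F ⊓ cm (II V D x) c) ≤ F ⊓ (D ⊓ V) := cj_le_iff_forall.2 fun b hb => by
    have m := cF g g1 g2 g3 b hb.1
    rw [show x * v * g * b * (x * v * g)⁻¹ = x * v * (g * b * g⁻¹) * (x * v)⁻¹ by group]
    refine ⟨cF _ h.uD (nn h.uI) h.uB _ m, h.u2 ▸ conj_mem_cj _ ?_⟩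
    have m1 : v' ∈ cm (II V D x) (g * b * g⁻¹) := e2 ▸ mul_mem
      ⟨mul_mem (mul_mem g2 (nn (h.cI hc))) (inv_mem g2), cm_cj g2 (cm_symm hb.2.2)⟩
      ⟨h.nI (norm_mem' g1 e), m.2.2 _ (norm_mem' g1 e)⟩
    obtain ⟨y, hy, w, hw, k⟩ := h.exB m.1
    have m2 : y * w * w⁻¹ ∈ cm (II V D x) v' := mul_mem (k ▸ ⟨m.2.1, cm_symm m1.2⟩)
      (inv_mem ⟨h.nI (h.WD hw), cm_one (c5 w hw).symm⟩)
    rw [mul_inv_cancel_right] at m2
    exact k ▸ mul_mem (c4 y hy (cm_symm m2.2)).2 hw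
  have l2 : F ⊓ (D ⊓ V) ≤ F ⊓ cm (II V D x) c := fun b hb =>
    ⟨hb.1, hb.1.2.1, cm_one (h.ea.comm _ hb.2.2 _ hc)⟩
  have := card_le_of_le l1
  rw [card_cj] at this
  exact aV ((eq_of_le_of_card_ge l2 this).ge ⟨⟨mem_sup_right ha, h.nI (h.WD ha), h1⟩, h.nI (h.WD ha), cm_symm h2⟩).2.2

end Cf0

/-- the configuration -/
structure Cf (T V D : Subgroup G) (x v : G) : Prop extends Cf0 T V D x v where
  key : ∀ a ∈ W1 V D x, a ∉ V → (∀ d ∈ D, ⁅d, a⁆ ∈ II V D x) → ∀ y ∈ V, ⁅y, a⁆ ∈ II V D x → y ∈ D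

/-- a notion of a good conjugation -/
structure Gd (X V : Subgroup G) (P : G → Subgroup G → Prop) : Prop where
  mono : ∀ {g E D}, P g E → D ≤ E → P g D
  mul : ∀ {g k D}, P g D → P k (cj[g] D) → P (k * g) D
  inv : ∀ {g D}, P g D → P g⁻¹ (cj[g] D)
  base : ∀ g ∈ X, g ∈ 𝐍(V) → ∀ D, P g D
  cen : ∀ D, ∀ g ∈ 𝐂(D), P g D

theorem gd_sub {X V A : Subgroup G} (n : X ⊓ 𝐍(V) ≤ 𝐍(A)) :
    Gd X V fun g D => ∀ d ∈ D, (g * d * g⁻¹ ∈ A ↔ d ∈ A) where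
  mono := fun a l d hd => a d (l hd)
  mul := fun {g k D} a b d hd => by
    rw [← a d hd, ← b _ (conj_mem_cj g hd), show k * g * d * (k * g)⁻¹ = k * (g * d * g⁻¹) * k⁻¹ by group]
  inv := fun {g D} a d hd => by
    rw [inv_inv, ← a _ (mem_cj.1 hd)]; simp [mul_assoc]
  base := fun g a b _ d _ => (mem_normalizer_iff.1 (n ⟨a, b⟩) d).symm
  cen := fun D g hg d hd => by rw [← hg d hd, mul_inv_cancel_right]

theorem gd_ind {X V Y : Subgroup G} (n : X ⊓ 𝐍(V) ≤ Y) :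
    Gd X V fun g D => ∃ y ∈ Y, ∀ d ∈ D, g * d * g⁻¹ = y * d * y⁻¹ where
  mono := fun ⟨y, a, b⟩ l => ⟨y, a, fun d hd => b d (l hd)⟩
  mul := fun {g k D} ⟨y, a, b⟩ ⟨y', a', b'⟩ => ⟨_, mul_mem a' a, fun d hd => by
    rw [show k * g * d * (k * g)⁻¹ = k * (g * d * g⁻¹) * k⁻¹ by group, b' _ (conj_mem_cj g hd), b d hd]; group⟩
  inv := fun {g D} ⟨y, a, b⟩ => ⟨_, inv_mem a, fun d hd => by
    have := b _ (mem_cj.1 hd)
    rw [show g * (g⁻¹ * d * g) * g⁻¹ = d by group] at this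
    conv_rhs => rw [this]
    group⟩
  base := fun g a b _ => ⟨g, n ⟨a, b⟩, fun _ _ => rfl⟩
  cen := fun D g hg => ⟨1, one_mem _, fun d hd => by rw [← hg d hd]; group⟩

theorem exists_se [Finite G] {X T V : Subgroup G} {P : G → Subgroup G → Prop} (p : Gd X V P) (s : IsSyl 2 T X)
    (n : X ⊓ 𝐍(T) ≤ 𝐍(V)) (h : ∃ D ≤ T, ∃ g ∈ X, cj[g] D ≤ T ∧ ¬ P g D) :
    ∃ D ≤ T, IsSyl 2 (T ⊓ 𝐍(D)) (X ⊓ 𝐍(D)) ∧ (∃ y ∈ X ⊓ 𝐍(D), ¬ P y D) ∧
      ∀ E ≤ T, D < E → ∀ g ∈ X, cj[g] E ≤ T → P g E := by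
  have : Fact (Nat.Prime 2) := ⟨Nat.prime_two⟩
  obtain ⟨D, ⟨DT, g, hg, gD, bad⟩, mx⟩ := Set.exists_max_image
    {D : Subgroup G | D ≤ T ∧ ∃ g ∈ X, cj[g] D ≤ T ∧ ¬ P g D} (fun D => Nat.card D) (Set.toFinite _) h
  have good : ∀ E ≤ T, Nat.card D < Nat.card E → ∀ g ∈ X, cj[g] E ≤ T → P g E := fun E l c g hg k =>
    by_contra fun b => c.not_ge (mx E ⟨l, g, hg, k, b⟩)
  have ne : Nat.card D < Nat.card T := (card_le_of_le DT).lt_of_ne fun e => bad (by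
    rw [eq_of_le_of_card_ge DT e.ge] at gD
    exact p.base g hg (n ⟨hg, mem_normalizer_of_cj_le gD⟩) D)
  have up : ∀ k ∈ X, cj[k] D ≤ T → ∀ b ∈ X, cj[b] (T ⊓ 𝐍(cj[k] D)) ≤ T → P b (cj[k] D) := fun k _ l b hb m =>
    have lt := lt_inf_normalizer s.isPGroup (l.lt_of_ne fun e => by rw [← e, card_cj] at ne; exact lt_irrefl _ ne)
    p.mono (good _ inf_le_left (card_cj k D ▸ card_lt_card_of_lt lt) b hb m) lt.le
  obtain ⟨S, hS, lS⟩ := exists_isSyl_ge (L := X ⊓ 𝐍(D)) (s.isPGroup.to_le (inf_le_left : T ⊓ 𝐍(D) ≤ T))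
    (inf_le_inf_right _ s.le)
  obtain ⟨k, hk, kS⟩ := s.exists_cj_le hS.isPGroup (hS.le.trans inf_le_left)
  have DS : D ≤ S := (le_inf DT le_normalizer).trans lS
  have s1 := hS.cj k
  rw [cj_inf, cj_normalizer, cj_eq_self_of_mem hk] at s1
  have s2 : IsSyl 2 (T ⊓ 𝐍(cj[k] D)) (X ⊓ 𝐍(cj[k] D)) :=
    s1.eq_of_le (s.isPGroup.to_le inf_le_left) (le_inf kS (s1.le.trans inf_le_right)) (inf_le_inf_right _ s.le) ▸ s1
  refine ⟨cj[k] D, (cj_mono k DS).trans kS, s2, ?_, fun E l lt => good E l (card_cj k D ▸ card_lt_card_of_lt lt)⟩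
  have p1 := up 1 (one_mem X) (by rwa [cj_one]) k hk (by rw [cj_one]; exact (cj_mono k lS).trans kS)
  rw [cj_one] at p1
  obtain ⟨b, hb, l⟩ := s2.exists_cj_le (Q := cj[k * g⁻¹] (T ⊓ 𝐍(cj[g] D))) (isPGroup_cj _ (s.isPGroup.to_le inf_le_left)) (by
    rw [cj_inf, cj_normalizer, ← cj_mul, inv_mul_cancel_right]
    exact inf_le_inf_right _ (cj_le_of_mem (mul_mem hk (inv_mem hg)) s.le))
  rw [← cj_mul] at l
  have p2 := up g hg gD _ (mul_mem hb.1 (mul_mem hk (inv_mem hg))) (l.trans inf_le_left)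
  refine ⟨b, hb, fun p3 => bad ?_⟩
  have p4 := p.inv p2
  rw [← cj_mul, show b * (k * g⁻¹) * g = b * k by group] at p4
  simpa [mul_assoc] using p.mul (p.mul p1 p3) p4

theorem exists_cf' [Finite G] {X T V : Subgroup G} {P : G → Subgroup G → Prop} (p : Gd X V P) (s : IsSyl 2 T X)
    (ea : EA V) (VT : V ≤ T) (TV : T ≤ 𝐍(V)) (wc : ∀ g ∈ X, cj[g] V ≤ T → g ∈ 𝐍(V))
    (h : ∃ D ≤ T, ∃ g ∈ X, cj[g] D ≤ T ∧ ¬ P g D) : ∃ D x v, Cf T V D x v ∧ x ∈ X ∧ ¬ P x D := by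
  have : Fact (Nat.Prime 2) := ⟨Nat.prime_two⟩
  obtain ⟨D, DT, s1, ⟨y, hy, bad⟩, good⟩ := exists_se p s (fun g hg => wc g hg.1
    (cj_le_of_mem_normalizer hg.2 VT)) h
  let Y : Subgroup G :=
    { carrier := {g | g ∈ X ⊓ 𝐍(D) ∧ P g D}
      one_mem' := ⟨one_mem _, p.cen D 1 (one_mem _)⟩
      mul_mem' := fun {a b} ha hb => ⟨mul_mem ha.1 hb.1, p.mul hb.2 ((cj_eq_self hb.1.2).symm ▸ ha.2)⟩
      inv_mem' := fun {a} ha => ⟨(X ⊓ 𝐍(D)).inv_mem ha.1, by have := p.inv ha.2; rwa [cj_eq_self ha.1.2] at this⟩ }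
  have pr : ∀ g ∈ X ⊓ 𝐍(D), (g ∈ Y ↔ P g D) := fun g hg => and_iff_right hg
  have TY : T ⊓ 𝐍(D) ≤ Y := fun t ht => ⟨s1.le ht, p.base t (s.le ht.1) (TV ht.1) D⟩
  have DY : D ≤ Y := (le_inf DT le_normalizer).trans TY
  have s2 := s1.mono TY fun _ a => a.1
  have c1 : ∀ t ∈ Y, t ∉ D → t * t ∈ D → ∀ g ∈ X ⊓ 𝐍(D), g * t * g⁻¹ ∈ Y → g ∈ Y := fun t ht tD tt g hg m => by
    have pR : IsPGroup 2 ↥(D ⊔ zpowers t) := by
      obtain ⟨k, e⟩ := isPGroup_iff_forall.1 s.isPGroup _ (DT tt)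
      exact (s.isPGroup.to_le DT).to_sup_of_normal_left' (isPGroup_zpowers (k := k + 1) (by
        rw [pow_succ', pow_mul, pow_two, e])) (zpowers_le.2 ht.1.2)
    obtain ⟨a, ha, l1⟩ := s2.exists_cj_le pR (sup_le DY (zpowers_le.2 ht))
    obtain ⟨b, hb, l2⟩ := s2.exists_cj_le (isPGroup_cj g pR) (by
      rw [cj_sup, cj_eq_self hg.2, cj_zpowers]; exact sup_le DY (zpowers_le.2 m))
    have lt : D < cj[a] (D ⊔ zpowers t) := by
      conv_lhs => rw [← cj_eq_self ha.1.2]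
      exact cj_lt_cj_iff.2 (le_sup_left.lt_of_ne fun e => tD (e ▸ mem_sup_right (mem_zpowers t)))
    have k := mul_mem (mul_mem hb.1 hg) ((X ⊓ 𝐍(D)).inv_mem ha.1)
    have := (pr _ k).2 (p.mono (good _ (l1.trans inf_le_left) lt _ k.1 (by
      rw [← cj_mul, inv_mul_cancel_right, cj_mul]; exact l2.trans inf_le_left)) lt.le)
    simpa [mul_assoc] using Y.mul_mem (Y.mul_mem (Y.inv_mem hb) this) ha
  have c2 : ∀ c ∈ Y, c ∉ D → c * c = 1 → ∀ w ∈ X ⊓ 𝐍(D), w ∉ Y → w * w = 1 → ∃ m, Odd m ∧ (c * w) ^ m ∈ D :=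
    fun c hc cD cc w hw wY ww => by
      obtain ⟨m, o, k, e⟩ := exists_odd_pow_two (c * w)
      refine ⟨m, o, by_contra fun nm => ?_⟩
      obtain ⟨j, j1, j2⟩ : ∃ j, ((c * w) ^ m) ^ 2 ^ j ∉ D ∧ ((c * w) ^ m) ^ 2 ^ (j + 1) ∈ D := by
        by_contra q
        push Not at q
        exact (Nat.rec (motive := fun j => ((c * w) ^ m) ^ 2 ^ j ∉ D) (by simpa using nm) q k) (e ▸ one_mem D)
      rw [pow_succ, pow_mul, pow_two] at j2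
      have i : ∀ a, a * (c * w) * a⁻¹ = (c * w)⁻¹ → a * ((c * w) ^ m) ^ 2 ^ j * a⁻¹ = (((c * w) ^ m) ^ 2 ^ j)⁻¹ :=
        fun a e => by rw [← conj_pow, ← conj_pow, e, inv_pow, inv_pow]
      have i1 := i c (by rw [← mul_assoc, cc, one_mul, mul_inv_rev, inv_eq_of_mul_eq_one_right ww])
      have i2 := i w (by rw [mul_inv_rev, ← mul_assoc, mul_inv_cancel_right, inv_eq_of_mul_eq_one_right ww,
        inv_eq_of_mul_eq_one_right cc])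
      have tX := pow_mem (pow_mem (mul_mem hc.1 hw) m) (2 ^ j)
      generalize ((c * w) ^ m) ^ 2 ^ j = t at *
      have tY := c1 c hc cD (cc ▸ one_mem D) t tX (by
        rw [show t * c * t⁻¹ = t * (c * t * c⁻¹)⁻¹ * c by group, i1, inv_inv]; exact mul_mem (DY j2) hc)
      exact wY (c1 t tY j1 j2 w hw (i2 ▸ inv_mem tY))
  have yY := mt (pr y hy).1 bad
  have up : ∀ E ≤ V, D ≤ 𝐍(E) → ¬ E ≤ D → ∃ c ∈ E, c ∈ 𝐍(D) ∧ c ∉ D := fun E l nE k => by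
    obtain ⟨g, ⟨g1, g2⟩, g3⟩ := SetLike.exists_of_lt (lt_inf_normalizer (s.isPGroup.to_le (sup_le DT (l.trans VT)))
      ((le_sup_left : D ≤ D ⊔ E).lt_of_ne fun e => k (e ▸ le_sup_right)))
    obtain ⟨d, hd, c, hc, rfl⟩ := (mem_sup_of_le_normalizer' nE).1 g1
    exact ⟨c, hc, by simpa using mul_mem (inv_mem (le_normalizer hd)) g2, fun m => g3 (mul_mem hd m)⟩
  obtain ⟨v, vV, vD, v3⟩ := up V le_rfl (DT.trans TV) fun l => bad
    (p.base y hy.1 (wc y hy.1 ((cj_le_of_mem_normalizer hy.2 l).trans DT)) D)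
  have vY := TY ⟨VT vV, vD⟩
  have vv := ea v vV
  have wX := mul_mem (mul_mem hy vY.1) (inv_mem hy)
  have wY := mt (c1 v vY v3 (vv ▸ one_mem D) y hy) yY
  have ww := ea.cj y _ (conj_mem_cj y vV)
  generalize y * v * y⁻¹ = w at wX wY ww
  obtain ⟨m, o, e⟩ := c2 v vY v3 vv w wX wY ww
  obtain ⟨k, ok⟩ := exists_two_pow_odd (v * w)
  have xX := pow_mem (mul_mem vY.1 wX) (2 ^ k)
  have xY : (v * w) ^ 2 ^ k ∉ Y := fun q => wY (by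
    have := (Nat.gcd_eq_gcd_ab m (2 ^ k)).symm
    rw [(Nat.coprime_two_right.2 o).pow_right k] at this
    have q' := mul_mem (zpow_mem (DY e) (Nat.gcdA m (2 ^ k))) (zpow_mem q (Nat.gcdB m (2 ^ k)))
    rw [← zpow_natCast, ← zpow_natCast, ← zpow_mul, ← zpow_mul, ← zpow_add, this] at q'
    simpa using mul_mem (inv_mem vY) q')
  have i : v * (v * w) ^ 2 ^ k * v⁻¹ = ((v * w) ^ 2 ^ k)⁻¹ := by
    rw [← conj_pow, ← inv_pow, ← mul_assoc, vv, one_mul, mul_inv_rev, inv_eq_of_mul_eq_one_right ww]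
  generalize (v * w) ^ 2 ^ k = x at ok xX xY i
  have f : Cf0 T V D x v := ⟨ea, s.isPGroup, VT, TV, DT, xX.2, ok, vV, vD, i, fun q =>
    xY ⟨xX, p.cen D x q⟩⟩
  refine ⟨D, x, v, ⟨f, fun a ha aV h1 y hy h2 => by_contra fun yD => ?_⟩, xX.1, fun q => xY ⟨xX, q⟩⟩
  have nI : V ≤ 𝐍(II V D x) := fun c hc => centralizer_le_normalizer _ (f.cI hc)
  obtain ⟨c, hc, c3, c4⟩ := up (V ⊓ cm (II V D x) a) inf_le_left (fun d hd => mem_normalizer_of_conj_mem fun c hc =>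
    have m := norm_mem' (TV (DT hd)) hc.1
    ⟨m, nI m, cm_symm (show a ∈ cm _ (d * c * d⁻¹) from by
      have := mul_mem (inv_mem (show ⁅d, a⁆ ∈ cm _ (d * c * d⁻¹) from ⟨le_normalizer (h1 d hd),
        cm_one (f.cI m _ (h1 d hd))⟩)) (show d * a * d⁻¹ ∈ cm _ (d * c * d⁻¹) from
          ⟨f.nI (norm_mem' (le_normalizer hd) (f.WD ha)), cm_cj (f.nI hd) (cm_symm hc.2.2)⟩)
      simpa [commutatorElement_def, mul_assoc] using this).2⟩) fun l => yD (l ⟨hy, nI hy, h2⟩)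
  obtain ⟨m, o, e⟩ := c2 c (TY ⟨VT hc.1, c3⟩) c4 (ea c hc.1) _ (mul_mem (mul_mem xX vY.1) (inv_mem xX))
    (fun q => xY (f.mem_x vY q)) (f.eW _ f.v'W)
  exact f.key0 hc.1 c3 rfl o e ha aV h1 hc.2.2

theorem exists_cf [Finite G] {X T V A : Subgroup G} (s : IsSyl 2 T X) (ea : EA V) (VT : V ≤ T) (TV : T ≤ 𝐍(V))
    (wc : ∀ g ∈ X, cj[g] V ≤ T → g ∈ 𝐍(V)) (n : X ⊓ 𝐍(V) ≤ 𝐍(A))
    (h : ∃ a ∈ A, a ∈ T ∧ ∃ g ∈ X, g * a * g⁻¹ ∈ T ∧ g * a * g⁻¹ ∉ A) :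
    ∃ D x v, Cf T V D x v ∧ x ∈ X ∧ ∃ d ∈ D, ¬ (x * d * x⁻¹ ∈ A ↔ d ∈ A) := by
  obtain ⟨a, ha, aT, g, hg, m1, m2⟩ := h
  simpa only [not_forall, exists_prop] using exists_cf' (gd_sub n) s ea VT TV wc ⟨zpowers a, zpowers_le.2 aT, g, hg,
    by rw [cj_zpowers]; exact zpowers_le.2 m1, fun k => m2 ((k a (mem_zpowers a)).2 ha)⟩

end CF.RF
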