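import Cfsg.Agent.RF.BD
import Cfsg.Agent.JP.D
import Cfsg.Agent.Comp.Mat

/-! The faithful modules of dimension eleven of the Mathieu group of degree 24. -/

set_option autoImplicit false
set_option maxRecDepth 1000000
set_option linter.unusedSectionVars false

namespace CF.RF
open Cfsg Subgroup CF.Loc CF.LX CF.Comp CF.Dce CF.Comp.Mat CF.J4 CF.JP

theorem fe {α : Type} {x : ℕ} {k : ℕ → α} {y : α} (h : force x k = y) : k x = y := force_eq x k ▸ h

/-- packing of rows -/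
noncomputable def pkc (W m : ℕ) (f : ℕ → ℕ) : ℕ := Nat.rec (motive := fun _ => ℕ) (nat_lit 0)
  (fun k r => force r fun r => Nat.add r (Nat.shiftLeft (f k) (Nat.mul W k))) m

theorem pkc_eq (W m : ℕ) (f : ℕ → ℕ) : pkc W m f = pk W m f := by
  induction m with
  | zero => rfl
  | succ m ih =>
    refine (force_eq (pkc W m f) fun r => Nat.add r (Nat.shiftLeft (f m) (Nat.mul W m))).trans ?_
    rw [ih, pk, pk, Finset.sum_range_succ, ← Nat.shiftLeft_eq]; rfl

attribute [irreducible] pkc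

/-- one step of Euclid's algorithm for polynomials -/
noncomputable def euS (ih : ℕ → ℕ → Bool) (a b : ℕ) : Bool := Bool.rec (Bool.rec (ih b a)
  (force (Nat.shiftLeft b (Nat.sub (Nat.log2 a) (Nat.log2 b))) fun s =>
    Bool.rec false (ih (Nat.xor a s) b) (Nat.ble s 8388607)) (Nat.ble b a)) true (Nat.beq a 1)

/-- Euclid's algorithm for polynomials -/
noncomputable def eu (k : ℕ) : ℕ → ℕ → Bool := Nat.rec (motive := fun _ => ℕ → ℕ → Bool) (fun _ _ => false)
  (fun _ ih a b => force a fun a => euS ih a b) k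

theorem eu_spec {P : ℕ → Prop} (h1 : ∀ a b, P a → P b → P (a ^^^ b)) (h2 : ∀ a < 2 ^ 22, P a → P (a <<< 1)) (k : ℕ) :
    ∀ a b, P a → P b → eu k a b = true → P 1 := by
  have sh : ∀ b j, P b → b <<< j ≤ 8388607 → P (b <<< j) := fun b j p => by
    induction j with
    | zero => exact fun _ => p
    | succ j ih =>
      intro l
      rw [Nat.shiftLeft_add] at l ⊢
      rw [Nat.shiftLeft_eq (b <<< j)] at l
      exact h2 _ (by omega) (ih (by omega))
  induction k with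
  | zero => exact fun _ _ _ _ h => absurd h Bool.false_ne_true
  | succ k ih =>
    intro a b pa pb h
    rcases brec_or.1 (fe (k := fun a => euS (eu k) a b) h) with h | h
    · exact beq_iff.1 h ▸ pa
    cases e : Nat.ble b a <;> rw [e] at h
    · exact ih b a pb pa h
    replace h := brec_and.1 ((force_eq _ _).symm.trans h)
    exact ih _ b (h1 _ _ pa (sh b _ pb (ble_iff.1 h.1))) pb h.2

/-- reverses the coordinates -/
noncomputable def RV : ℕ := pkc 11 11 fun i => Nat.shiftRight 1024 i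

theorem chk_eu : force RV (fun R => allBin (fun c => Bool.rec (eu 60 8388607 (vm 11 c R)) true (Nat.beq c 0))
    2048 11 0) = true := by decide +kernel

/-- the companion matrix -/
noncomputable def cmp (c : ℕ) : ℕ := pkc 11 11 fun i => Bool.rec (Nat.shiftLeft 1 (Nat.pred i)) c (Nat.beq i 0)

theorem chk_cmp : allBin (fun c => force (cmp c) fun A => imp (Nat.beq (pw (mm 11) (mo 11) A 23) (mo 11))
    (lany (Nat.beq c) [nth 0 idC 0, nth 0 idG 0])) 2048 11 0 = true := by decide +kernel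

theorem tw_pow {n X A A' : ℕ} (hn : 0 < n) (l : X < 2 ^ (n * n)) (e : mm n A X = mm n X A') (k : ℕ) :
    mm n (pw (mm n) (mo n) A k) X = mm n X (pw (mm n) (mo n) A' k) := by
  induction k with
  | zero => rw [pw_zero, pw_zero, mo_mm hn l, mm_mo hn l]
  | succ k ih => rw [pw_succ, pw_succ, mm_assoc hn, e, ← mm_assoc hn, ih, mm_assoc hn]

theorem det {n X A A' U Ui : ℕ} (hn : 0 < n) (l : X < 2 ^ (n * n)) (e : mm n A X = mm n X A') (s j : ℕ → ℕ)
    (h1 : ∀ i < n, fld n U i = vm n (s i) (pw (mm n) (mo n) A (j i))) (h2 : mm n Ui U = mo n) :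
    X = mm n Ui (pkc n n fun i => vm n (vm n (s i) X) (pw (mm n) (mo n) A' (j i))) := by
  rw [pkc_eq, ← eq_of_fld hn (mm_lt hn U X) (pk_lt hn fun _ _ => vm_lt _ _ _) fun i hi => by
    rw [fld_pk hn (fun _ _ => vm_lt _ _ _) hi, fld_mm hn hi, h1 i hi, ← vm_mm hn, tw_pow hn l e, vm_mm hn],
    ← mm_assoc hn, h2, mo_mm hn l]

/-- the sum over the powers -/
noncomputable def sv (A u k : ℕ) : ℕ :=
  Nat.rec (motive := fun _ => ℕ) 0 (fun i r => r ^^^ vm 11 u (pw (mm 11) (mo 11) A i)) k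

theorem sv_succ (A u k : ℕ) : sv A u (k + 1) = sv A u k ^^^ vm 11 u (pw (mm 11) (mo 11) A k) := rfl

theorem n11 : 0 < 11 := by norm_num

theorem x11 {a b : ℕ} (ha : a < 2048) (hb : b < 2048) : a ^^^ b < 2048 := Nat.xor_lt_two_pow (n := 11) ha hb

theorem v11 (a b : ℕ) : vm 11 a b < 2048 := vm_lt 11 a b

theorem sv1 {A u : ℕ} (hu : u < 2048) (k : ℕ) : sv A u k < 2048 ∧
    sv A u k ^^^ vm 11 (sv A u k) A = u ^^^ vm 11 u (pw (mm 11) (mo 11) A k) := by
  induction k with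
  | zero => exact ⟨Nat.two_pow_pos 11, by rw [pw_zero, vm_mo n11 hu, Nat.xor_self]; exact (Nat.zero_xor _).trans (vm_zero _ _)⟩
  | succ k ih =>
    refine ⟨x11 ih.1 (v11 _ _), ?_⟩
    rw [sv_succ, vm_xor, xor4, ih.2, pw_succ, vm_mm n11, Nat.xor_assoc, Nat.xor_xor_cancel_left]

theorem sv2 {A u : ℕ} (l : A < 2 ^ (11 * 11)) (hu : u < 2048) (k : ℕ) :
    sv A (u ^^^ vm 11 u A) k = u ^^^ vm 11 u (pw (mm 11) (mo 11) A k) := by
  induction k with
  | zero => rw [pw_zero, vm_mo n11 hu, Nat.xor_self]; rfl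
  | succ k ih =>
    rw [sv_succ, ih, vm_xor, ← vm_mm n11, ← tw_pow n11 l rfl, pw_succ, Nat.xor_assoc, Nat.xor_xor_cancel_left]

theorem cyc {A u : ℕ} (h23 : pw (mm 11) (mo 11) A 23 = mo 11) (hu : u < 2048) (u0 : u ≠ 0) (hS : sv A u 23 = 0) :
    ∃ P P', mm 11 P P' = mo 11 ∧ mm 11 P' P = mo 11 ∧ vm 11 1024 P = u ∧
      ∃ c ∈ [nth 0 idC 0, nth 0 idG 0], mm 11 P (mm 11 A P') = cmp c := by
  obtain ⟨w, hw⟩ : ∃ w : ℕ → ℕ, ∀ i, w i = vm 11 u (pw (mm 11) (mo 11) A i) := ⟨_, fun _ => rfl⟩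
  have wl : ∀ i, w i < 2 ^ 11 := fun i => hw i ▸ v11 _ _
  have ws : ∀ i, w (i + 1) = vm 11 (w i) A := fun i => by rw [hw, hw, pw_succ, vm_mm n11]
  have w0 : w 0 = u := by rw [hw, pw_zero, vm_mo n11 hu]
  obtain ⟨R, e1⟩ : ∃ R, ∀ i < 23, vm 23 (2 ^ i) R = w i := ⟨pk 23 23 w, fun i hi => by
    rw [vm_pow hi, fld_pk (by norm_num) (fun k _ => (wl k).trans (by norm_num)) hi]⟩
  obtain ⟨P, lP, e2⟩ : ∃ P < 2 ^ (11 * 11), ∀ i < 11, fld 11 P i = w (10 - i) :=
    ⟨_, pk_lt n11 fun k _ => wl (10 - k), fun i hi => fld_pk n11 (fun k _ => wl (10 - k)) hi⟩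
  have e3 : ∀ c < 2 ^ 11, vm 23 (vm 11 c RV) R = vm 11 c P := xor_ind (by rw [vm_zero, vm_zero, vm_zero])
    (fun i hi => by
      rw [(by decide +kernel : ∀ i < 11, vm 11 (2 ^ i) RV = 2 ^ (10 - i)) i hi, e1 _ (by omega), vm_pow hi, e2 i hi])
    fun a _ b _ p q => by rw [vm_xor, vm_xor, vm_xor, p, q]
  have e4 : ∀ c < 2 ^ 22, vm 23 (c <<< 1) R = vm 11 (vm 23 c R) A :=
    xor_ind (by rw [Nat.zero_shiftLeft, vm_zero, vm_zero])
      (fun i hi => by rw [Nat.shiftLeft_eq, ← pow_add, e1 i (by omega), e1 _ (by omega), ws])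
      fun a _ b _ p q => by rw [Nat.shiftLeft_xor_distrib, vm_xor, vm_xor, vm_xor, p, q]
  have e5 : ∀ k ≤ 23, vm 23 (2 ^ k - 1) R = sv A u k := fun k hk => by
    induction k with
    | zero => exact vm_zero _ _
    | succ k ih =>
      rw [(by decide +kernel : ∀ k < 23, 2 ^ (k + 1) - 1 = (2 ^ k - 1) ^^^ 2 ^ k) k hk, vm_xor, ih (by omega), e1 k hk,
        sv_succ, hw]
  have ck := fe chk_eu
  obtain ⟨P', a, b⟩ := exists_inv n11 lP fun c hc e => by_contra fun c0 => u0 <| by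
    rw [← w0, ← e1 0 (by norm_num)]
    exact eu_spec (P := fun a => vm 23 a R = 0) (fun a b p q => by rw [vm_xor, p, q]; rfl)
      (fun a ha p => by rw [e4 a ha, p, vm_zero]) 60 _ _ ((e5 23 le_rfl).trans hS) ((e3 c hc).trans e)
      ((brec_or.1 (allBin_spec ck le_rfl c hc)).resolve_left (mt beq_iff.1 c0))
  have e6 : mm 11 P (mm 11 A P') = cmp (vm 11 (w 11) P') := by
    have l : ∀ i < 11, (Bool.rec (Nat.shiftLeft 1 (Nat.pred i)) (vm 11 (w 11) P') (Nat.beq i 0) : ℕ) < 2 ^ 11 :=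
      fun i hi => by
        rw [brec_beq]; split_ifs with q
        exacts [v11 _ _, (by decide +kernel : ∀ i < 11, Nat.shiftLeft 1 (Nat.pred i) < 2 ^ 11) i hi]
    rw [cmp, pkc_eq]
    refine eq_of_fld n11 (mm_lt n11 _ _) (pk_lt n11 l) fun i hi => ?_
    rw [fld_pk n11 l hi, fld_mm n11 hi, e2 i hi, vm_mm n11, ← ws, brec_beq]
    split_ifs with q
    · rw [q]
    rw [show 10 - i + 1 = 10 - (i - 1) by omega, ← e2 _ (by omega), ← fld_mm n11 (by omega), a]
    exact (by decide +kernel : ∀ i < 11, fld 11 (mo 11) (i - 1) = Nat.shiftLeft 1 (Nat.pred i)) i hi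
  refine ⟨P, P', a, b, ((vm_pow (i := 10) (by norm_num) P).trans (e2 10 (by norm_num))).trans w0, _, ?_, e6⟩
  generalize hc : vm 11 (w 11) P' = c at e6
  have := imp_iff.1 ((force_eq _ _).symm.trans (allBin_spec chk_cmp le_rfl c (hc ▸ v11 _ _))) (beq_iff.2 (by
    have t := tw_pow (A := cmp c) (A' := A) n11 lP (by
      rw [← e6, mm_assoc n11, mm_assoc n11, b]
      exact mat_ext n11 (mm_lt n11 _ _) (mm_lt n11 _ _) fun c _ => by
        rw [vm_mm n11, vm_mm n11, vm_mm n11, vm_mo n11 (v11 _ _)]) 23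
    rw [h23, mm_mo n11 lP] at t
    have := congrArg (mm 11 · P') t
    rwa [mm_assoc n11, a, mm_mo n11 (pw_succ _ _ _ 22 ▸ mm_lt n11 _ _)] at this))
  obtain ⟨c, hc, e⟩ := lany_iff.1 this
  exact beq_iff.1 e ▸ hc

theorem fix11 {B : ℕ} (h : pw (mm 11) (mo 11) B 11 = mo 11) : ∃ v < 2048, v ≠ 0 ∧ vm 11 v B = v := by
  haveI : Fact (Nat.Prime 11) := ⟨by norm_num⟩
  let F : Function.End (Fin 2048) := fun c => ⟨vm 11 c B, v11 _ _⟩
  have e : ∀ k (c : Fin 2048), ((F ^ k) c : ℕ) = vm 11 c (pw (mm 11) (mo 11) B k) := fun k c => by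
    induction k with
    | zero => rw [pw_zero, vm_mo n11 c.2]; rfl
    | succ k ih => rw [pw_succ, vm_mm n11, ← ih, pow_succ']; rfl
  have := Equiv.Perm.card_fixedPoints_modEq (f := F) (p := 11) (n := 1)
    (funext fun c => Fin.ext (by rw [pow_one, e, h, vm_mo n11 c.2]; rfl))
  by_contra q
  push Not at q
  have h1 : ∀ [Fintype (Function.fixedPoints F)], Fintype.card (Function.fixedPoints F) = 1 := fun {_} =>
    Fintype.card_eq_one_iff.2 ⟨⟨0, Fin.ext (vm_zero _ _)⟩, fun c => Subtype.ext (Fin.ext (by_contra fun n =>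
      q _ c.1.2 n (congrArg Fin.val c.2)))⟩
  rw [h1, Fintype.card_fin] at this
  exact absurd this (by decide)

/-- the candidate for the third matrix -/
noncomputable def cnd (B' Ui w : ℕ) : ℕ := mm 11 Ui (pkc 11 11 fun i =>
  vm 11 (Bool.rec w 1024 (Nat.beq i 10)) (pw (mm 11) (mo 11) B' (Nat.mod i 10)))

/-- the checks that determine the matrices -/
noncomputable def idOK (d L : List ℕ) : Bool := force (cmp (nth 0 d 0)) fun A => force (nth 0 d 1) fun B =>
  force (pw (mm 11) (mo 11) B 7) fun B' => force (pw (mm 11) (mo 11) A 11) fun A1 =>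
  force (pw (mm 11) (mo 11) A 13) fun A2 => lall (fun b => b)
  [allBin (fun v => imp (Nat.beq (vm 11 v A) v) (Nat.beq v 0)) 2048 11 0,
   allFrom (fun i => Nat.beq (fld 11 (mo 11) i) (vm 11 1024 (pw (mm 11) (mo 11) A (10 - i)))) (nat_lit 0) 11,
   Nat.beq (mm 11 (mo 11) (pkc 11 11 fun i => vm 11 1024 (pw (mm 11) (mo 11) (pw (mm 11) (mo 11) A 12) (10 - i)))) B,
   allBin (fun v => imp (Nat.beq (vm 11 v B') v) (lany (Nat.beq v) [0, 1024])) 2048 11 0,
   allFrom (fun i => Nat.beq (fld 11 (nth 0 d 3) i)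
     (vm 11 (Bool.rec 512 1024 (Nat.beq i 10)) (pw (mm 11) (mo 11) B (Nat.mod i 10)))) (nat_lit 0) 11,
   Nat.beq (mm 11 (nth 0 d 4) (nth 0 d 3)) (mo 11),
   allBin (fun w => force (cnd B' (nth 0 d 4) w) fun R => imp (Nat.beq (pw (mm 11) (mo 11) (mm 11 R A1) 6) (mo 11))
     (imp (Nat.beq (pw (mm 11) (mo 11) (mm 11 R A2) 6) (mo 11)) (Nat.beq R (nth 0 d 2)))) 2048 11 0,
   Nat.beq (mm 11 (nth 0 d 5) (nth 0 d 6)) (mo 11), Nat.beq (mm 11 (nth 0 d 6) (nth 0 d 5)) (mo 11),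
   Nat.beq (mm 11 (nth 0 d 6) (mm 11 A (nth 0 d 5))) (nth (mo 11) L 1),
   Nat.beq (mm 11 (nth 0 d 6) (mm 11 B (nth 0 d 5))) (nth (mo 11) L 3),
   Nat.beq (mm 11 (nth 0 d 6) (mm 11 (nth 0 d 2) (nth 0 d 5))) (nth (mo 11) L 5),
   tabOK (mm 11) (mo 11) (fun _ => true) L 3]

theorem chk_idC : idOK idC LBC = true := by decide +kernel
theorem chk_idG : idOK idG LBG = true := by decide +kernel

end CF.RF
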