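import Cfsg.Agent.RF.B

/-! Coordinates for the module and named elements. -/

set_option autoImplicit false
set_option maxRecDepth 1000000
set_option linter.unusedSectionVars false

namespace CF.RF
open Cfsg Subgroup CF.Loc CF.LX CF.Comp CF.Dce CF.Comp.Mat CF.J4 CF.JP

/-- permutations of the 24 points -/
abbrev Pm : Type := Equiv.Perm GolayPt

/-- the three generators -/
noncomputable def φ0 : ℕ → Pm := evs (el zN) wP

theorem r0 : Reps D0 nP φ0 := Bt.reps_evs zReps k5 (by decide +kernel)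

theorem eq0 {u w : List ℕ} (h : sameW nP 24 5 u w = true) : ev φ0 u = ev φ0 w :=
  Bt.eqv_sameW r0 k5 (D0_full.faithful ⊤) u w h

theorem φ0_mem (i : ℕ) : φ0 i ∈ M24 := by
  by_cases hi : i < 3
  · refine ev_mem_of_wordIn (hs := [[1], [3], [5]]) ?_
      ((by decide +kernel : ∀ i < 3, wordIn [[1], [3], [5]] (nth [] wP i) = true) i hi)
    rw [← closure_gens]
    simp only [List.forall_mem_cons]
    exact ⟨subset_closure (by simp [evL, zN0]), subset_closure (by simp [evL, zN1]),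
      subset_closure (by simp [evL, zN2]), by simp⟩
  · rw [φ0, evs_ge _ (not_lt.1 hi)]; exact one_mem _

theorem M24_le0 : M24 ≤ clo φ0 [[1], [3], [5]] := by
  have e := Bt.eqv_sameW zReps k5 (D0_full.faithful ⊤)
  have k : ∀ w i, sameW zN 24 5 (subst wP w) [2 * i + 1] = true → el zN i ∈ clo φ0 [[1], [3], [5]] := fun w i h => by
    rw [← ev_single (el zN), ← e _ _ h, ← ev_evs]
    refine ev_mem (fun j => ?_) w
    by_cases hj : j < 3
    · exact (ev_single φ0 j ▸ ev_mem_clo _ ((by decide : ∀ j < 3, [2 * j + 1] ∈ [[1], [3], [5]]) j hj) : φ0 j ∈ _)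
    · rw [evs_ge _ (not_lt.1 hj)]; exact one_mem _
  rw [← closure_gens, closure_le]
  rintro _ (rfl | rfl | rfl)
  exacts [zN0 ▸ k [1] 0 (by decide +kernel), zN1 ▸ k (nth [] wsc 0) 1 (by decide +kernel),
    zN2 ▸ k (nth [] wsc 1) 2 (by decide +kernel)]

variable {G : Type*} [Group G]

/-- the module with coordinates and the map onto the Mathieu group -/
structure F0 (V : Subgroup G) (ν : G → ℕ) (θ : G → Pm) : Prop where
  co : Co 11 V ⊥ ν
  cen : 𝐂(V) ≤ V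
  hom : HomOn 𝐍(V) θ
  ker : ∀ g ∈ 𝐍(V), (θ g = 1 ↔ g ∈ V)
  mem : ∀ g ∈ 𝐍(V), θ g ∈ M24
  sur : ∀ σ ∈ M24, ∃ g ∈ 𝐍(V), θ g = σ

/-- with named elements -/
structure Gn (V : Subgroup G) (ν : G → ℕ) (θ : G → Pm) (f : ℕ → G) (φ : ℕ → Pm) (L : List ℕ) : Prop
    extends F0 V ν θ where
  ph : ∀ i, θ (f i) = φ i
  tb : Tb (Ac 11 V ν) f (nth (mo 11) L)

namespace F0
variable {V : Subgroup G} {ν : G → ℕ} {θ : G → Pm} (h : F0 V ν θ)
include h

theorem ex {g : G} (hg : g ∈ 𝐍(V)) : ∃ x < 2 ^ (11 * 11), Ac 11 V ν g x :=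
  h.co.ex hg (by rw [normalizer_eq_top]; trivial)

theorem mo_iff {g : G} : Ac 11 V ν g (mo 11) ↔ g ∈ V :=
  ⟨fun a => h.cen ((ac_mo h.co).1 a), h.co.ac_self⟩

theorem chg {g g' : ℕ} (h1 : mm 11 g g' = mo 11) (h2 : mm 11 g' g = mo 11) : F0 V (fun a => vm 11 (ν a) g) θ :=
  ⟨h.co.change h1 h2, h.cen, h.hom, h.ker, h.mem, h.sur⟩

theorem rel {a b : G} {x y : ℕ} (ha : Ac 11 V ν a x) (hb : Ac 11 V ν b y) (lx : x < 2 ^ (11 * 11))
    (ly : y < 2 ^ (11 * 11)) (e : θ a = θ b) : x = y := by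
  have := h.co.cd.mul' ha (h.mo_iff.2 ((h.ker _ (mul_mem (inv_mem ha.1) hb.1)).1
    (by rw [h.hom _ (inv_mem ha.1) _ hb.1, h.hom.inv ha.1, e, inv_mul_cancel])))
  rw [mul_inv_cancel_left, mm_mo n11 lx] at this
  exact h.co.uniq' this hb lx ly

theorem relp {a : G} {x k : ℕ} (ha : Ac 11 V ν a x) (e : θ a ^ (k + 1) = 1) :
    pw (mm 11) (mo 11) x (k + 1) = mo 11 :=
  h.rel (h.co.cd.pow ha _) h.co.cd.one' (pw_succ _ _ _ k ▸ mm_lt n11 _ _) (mo_lt n11)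
    (by rw [h.hom.pow ha.1, e, h.hom.one])

theorem ident {f : ℕ → G} (hf : ∀ i, f i ∈ 𝐍(V)) (e : ∀ i, θ (f i) = φ0 i) (f1 : ∀ i, 3 ≤ i → f i = 1) {d L : List ℕ}
    (c : idOK d L = true) (a : Ac 11 V ν (f 0) (cmp (nth 0 d 0))) (v : ∀ x, Ac 11 V ν (f 1) x → vm 11 1024 x = 1024) :
    ∃ ν', Gn V ν' θ f φ0 L := by
  simp only [idOK, force_eq, lall_iff, List.forall_mem_cons, beq_iff, allFrom_zero] at c
  obtain ⟨-, c2, c3, c4, c5, c6, c7, c8, c9, c10, c11, c12, c13, -⟩ := c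
  have ev0 : ∀ w, θ (ev f w) = ev φ0 w := h.hom.ev' hf e
  obtain ⟨B, lB, b⟩ := h.ex (hf 1)
  obtain ⟨R, lR, r⟩ := h.ex (hf 2)
  have eB : B = nth 0 d 1 := by
    rw [← c3, det n11 lB (h.rel (h.co.cd.mul' a b) (h.co.cd.mul' b (h.co.cd.pow a 12)) (mm_lt n11 _ _) (mm_lt n11 _ _)
      (by simpa [← ev0, ev_lapp, ev_wpow, evL] using eq0 (u := [1, 3]) (w := lapp [3] (wpow [1] 12)) (by decide +kernel)))
      (fun _ => 1024) (fun i => 10 - i) c2 (mm_mo n11 (mo_lt n11)), v B b]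
  subst eB
  have t := h.rel (h.co.cd.mul' b r) (h.co.cd.mul' r (h.co.cd.pow b 7)) (mm_lt n11 _ _) (mm_lt n11 _ _)
    (by simpa [← ev0, ev_lapp, ev_wpow, evL] using eq0 (u := [3, 5]) (w := lapp [5] (wpow [3] 7)) (by decide +kernel))
  have e1 : vm 11 1024 R = 1024 := by
    have := imp_iff.1 (allBin_spec c4 le_rfl _ (v11 1024 R)) (beq_iff.2 (by rw [← vm_mm n11, ← t, vm_mm n11, v _ b]))
    simp only [lany_iff, List.mem_cons, beq_iff, List.not_mem_nil, or_false, exists_eq_or_imp, exists_eq_left] at this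
    refine this.resolve_left fun q => absurd (h.co.inj r (by rw [normalizer_eq_top]; trivial) (a := 1024) (b := 0)
      (by norm_num) (by norm_num) (q.trans (vm_zero _ _).symm)) (by norm_num)
  have e2 : R = cnd (pw (mm 11) (mo 11) (nth 0 d 1) 7) (nth 0 d 4) (vm 11 512 R) := by
    refine (det n11 lR t _ _ c5 c6).trans ?_
    rw [cnd]; congr 2; funext i
    cases Nat.beq i 10
    exacts [rfl, by rw [e1]]
  have k : ∀ m, sameW nP 24 5 (wpow (lapp [5] (wpow [1] m)) 6) [] = true →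
      pw (mm 11) (mo 11) (mm 11 R (pw (mm 11) (mo 11) (cmp (nth 0 d 0)) m)) 6 = mo 11 := fun m q =>
    h.relp (h.co.cd.mul' r (h.co.cd.pow a m)) (by
      rw [← h.hom.pow (mul_mem (hf 2) (pow_mem (hf 0) m))]
      simpa [← ev0, ev_lapp, ev_wpow, evL, h.hom.one] using eq0 q)
  have e3 := allBin_spec c7 le_rfl _ (v11 512 R)
  rw [← e2] at e3
  obtain rfl := beq_iff.1 (imp_iff.1 (imp_iff.1 e3 (beq_iff.2 (k 11 (by decide +kernel))))
    (beq_iff.2 (k 13 (by decide +kernel))))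
  refine ⟨_, h.chg c8 c9, e, (h.co.change c8 c9).cd.tb c13 (fun i hi => ?_) f1⟩
  obtain rfl | rfl | rfl : i = 0 ∨ i = 1 ∨ i = 2 := by omega
  exacts [c10 ▸ h.co.ac_change c8 a, c11 ▸ h.co.ac_change c8 b, c12 ▸ h.co.ac_change c8 r]

/-- a new list of named elements -/
theorem _root_.CF.RF.Gn.evs {f : ℕ → G} {φ : ℕ → Pm} {L L' : List ℕ} {ws : List (List ℕ)} (k : Gn V ν θ f φ L)
    (c : wtOK (mm 11) (mo 11) (fun _ => true) (nth (mo 11) L) ws L' = true) : Gn V ν θ (evs f ws) (evs φ ws) L' :=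
  ⟨h, fun _ => h.hom.ev' (fun i => (k.tb.odd i).1) k.ph _, h.co.cd.tb_evs k.tb c⟩

theorem exists_gn : ∃ ν' f, Gn V ν' θ f φ0 LBC ∨ Gn V ν' θ f φ0 LBG := by
  classical
  choose! s s1 s2 using h.sur
  let f : ℕ → G := fun i => if i < 3 then s (φ0 i) else 1
  have f1 : ∀ i, 3 ≤ i → f i = 1 := fun i hi => if_neg (not_lt.2 hi)
  have hf : ∀ i, f i ∈ 𝐍(V) ∧ θ (f i) = φ0 i := fun i => by
    by_cases hi : i < 3
    · rw [show f i = s (φ0 i) from if_pos hi]; exact ⟨s1 _ (φ0_mem i), s2 _ (φ0_mem i)⟩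
    · rw [f1 i (not_lt.1 hi), φ0, evs_ge _ (not_lt.1 hi)]; exact ⟨one_mem _, h.hom.one⟩
  obtain ⟨A, lA, a⟩ := h.ex (hf 0).1
  obtain ⟨B, lB, b⟩ := h.ex (hf 1).1
  have a23 := h.relp (k := 22) a (by
    simpa [(hf 0).2, ev_wpow, evL] using eq0 (u := wpow [1] 23) (w := []) (by decide +kernel))
  obtain ⟨v, lv, v0, ev⟩ := fix11 (h.relp (k := 10) b (by
    simpa [(hf 1).2, ev_wpow, evL] using eq0 (u := wpow [3] 11) (w := []) (by decide +kernel)))
  have fp : ∀ c ∈ [nth 0 idC 0, nth 0 idG 0], ∀ v < 2048, vm 11 v (cmp c) = v → v = 0 := by decide +kernel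
  obtain ⟨y, ly, ey⟩ : ∃ y < 2048, y ^^^ vm 11 y A ≠ 0 := by
    by_contra q
    push Not at q
    have := (h.ker _ (hf 0).1).2 (h.mo_iff.1 (h.co.congr a fun c hc => by
      rw [vm_mo n11 hc]; exact (Nat.eq_of_xor_eq_zero (q c hc)).symm))
    exact Bt.nev_difW r0 (by norm_num) 5 [1] [] (by decide +kernel) (by simpa [evL, ← (hf 0).2] using this)
  obtain ⟨P, P', p1, p2, -, c, hc, e⟩ := cyc a23 (x11 ly (v11 _ _)) ey
    (by rw [sv2 lA ly, a23, vm_mo n11 ly, Nat.xor_self])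
  obtain ⟨l, s⟩ := sv1 (A := A) lv 23
  rw [a23, vm_mo n11 lv, Nat.xor_self] at s
  obtain ⟨Q, Q', q1, q2, q3, c', hc', e'⟩ := cyc a23 lv v0 (by
    rw [← vm_mo n11 l, ← p2, vm_mm n11, fp c hc (vm 11 (sv A v 23) P') (v11 _ _) (by
      rw [← e, vm_mm n11, ← vm_mm n11 _ P' P, p2, vm_mo n11 l, vm_mm n11, ← Nat.eq_of_xor_eq_zero s]), vm_zero])
  have k := fun d L (c : idOK d L = true) (q : c' = nth 0 d 0) => (h.chg q2 q1).ident (fun i => (hf i).1)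
    (fun i => (hf i).2) f1 c (q ▸ e' ▸ h.co.ac_change q2 a) fun x hx => by
      rw [(h.co.change q2 q1).uniq hx (h.co.ac_change q2 b) (by norm_num), vm_mm n11, vm_mm n11, q3, ev, ← q3,
        ← vm_mm n11, q1, vm_mo n11 (by norm_num)]
  rcases List.mem_pair.1 hc' with q | q
  · exact (k _ _ chk_idC q).elim fun ν' p => ⟨ν', f, .inl p⟩
  · exact (k _ _ chk_idG q).elim fun ν' p => ⟨ν', f, .inr p⟩

end F0

theorem exists_f0 [Finite G] {V : Subgroup G} (hV : IsElementaryAbelian 2 V) (hc : Nat.card V = 2 ^ 11)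
    (hC : 𝐂(V) = V) (hM : Spor.IsoM24 (𝐍(V) ⧸ V.subgroupOf 𝐍(V))) : ∃ ν θ, F0 V ν θ := by
  classical
  obtain ⟨e⟩ := hM
  obtain ⟨ν, C⟩ := exists_co' (n := 10) (S := V) bot_le (fun _ _ => by rw [normalizer_eq_top]; trivial)
    (fun a ha => by simpa [pow_two] using hV.2 a ha) (by rw [hc, card_bot, mul_one])
  let θ : G → Pm := fun g => if hg : g ∈ 𝐍(V) then e (QuotientGroup.mk ⟨g, hg⟩) else 1
  have t : ∀ g (hg : g ∈ 𝐍(V)), θ g = e (QuotientGroup.mk ⟨g, hg⟩) := fun g hg => dif_pos hg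
  refine ⟨ν, θ, C, hC.le, fun a ha b hb => ?_, fun g hg => ?_, fun g hg => t g hg ▸ Subtype.mem _, fun σ hσ => ?_⟩
  · rw [t a ha, t b hb, t _ (mul_mem ha hb), ← coe_mul, ← map_mul, ← QuotientGroup.mk_mul]; rfl
  · rw [t g hg, OneMemClass.coe_eq_one, e.map_eq_one_iff, QuotientGroup.eq_one_iff, mem_subgroupOf]
  · obtain ⟨g, hg⟩ := QuotientGroup.mk_surjective (e.symm ⟨σ, hσ⟩)
    exact ⟨g, g.2, by rw [t _ g.2, hg, e.apply_symm_apply]⟩

end CF.RF
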