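import Cfsg.Agent.RF.C
import Cfsg.Agent.RF.DD

/-! A search through the elementary abelian subgroups of a Sylow subgroup. -/

set_option autoImplicit false
set_option maxRecDepth 1000000
set_option linter.unusedSectionVars false

namespace CF.RF
open Cfsg Subgroup CF.Loc CF.LX CF.Comp CF.Dce CF.J4 CF.JP

/-- a field of a packed number -/
noncomputable def gx (W X i : ℕ) : ℕ := Nat.land (Nat.shiftRight X (Nat.mul W i)) (full W)

theorem gx_eq (W X i : ℕ) : gx W X i = fld W X i := fld_eq W X i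

theorem gx_pkc {W m i : ℕ} {f : ℕ → ℕ} (hW : 0 < W) (h : ∀ k < m, f k < 2 ^ W) (hi : i < m) :
    gx W (pkc W m f) i = f i := by rw [gx_eq, pkc_eq, fld_pk hW h hi]

attribute [irreducible] gx

theorem fixM_iff {n N y v : ℕ} (hN : N = 2 ^ n) : (fixM n N y).testBit v = true ↔ v < N ∧ vm n v y = v := by
  have : ∀ k ≤ n, (Nat.rec (motive := fun _ => ℕ) (full N) (fun j r => force r fun r =>
      Nat.land r (Nat.xor (full N) (Nat.xor (colP n N y j) (plane N j)))) k : ℕ).testBit v = true →
      v < N ∧ ∀ j < k, (vm n v y).testBit j = v.testBit j := fun k hk => by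
    induction k with
    | zero => exact fun e => ⟨by simpa using (testBit_full N v).symm.trans e, by simp⟩
    | succ k ih =>
      intro e
      change (force _ _ : ℕ).testBit v = true at e
      rw [force_eq] at e
      change (_ &&& (full N ^^^ (colP n N y k ^^^ plane N k))).testBit v = true at e
      rw [Nat.testBit_and, Bool.and_eq_true] at e
      obtain ⟨l, p⟩ := ih (by omega) e.1
      refine ⟨l, fun j hj => ?_⟩
      rcases Nat.lt_succ_iff_lt_or_eq.1 hj with q | rfl
      · exact p j q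
      have := e.2
      rw [Nat.testBit_xor, Nat.testBit_xor, testBit_vm n v y hk l, testBit_plane, testBit_full] at this
      simpa [l] using this
  refine ⟨fun e => ?_, fun e => fixM_of e.1 e.2⟩
  unfold fixM at e
  obtain ⟨l, p⟩ := this n le_rfl e
  refine ⟨l, Nat.eq_of_testBit_eq fun j => ?_⟩
  by_cases q : j < n
  · exact p j q
  have m := Nat.pow_le_pow_right two_pos (not_lt.1 q)
  rw [Nat.testBit_lt_two_pow ((vm_lt _ _ _).trans_le m), Nat.testBit_lt_two_pow ((hN ▸ l).trans_le m)]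

theorem lt_of_bits {F N : ℕ} (h : ∀ v, F.testBit v = true → v < N) : F < 2 ^ N :=
  Nat.lt_pow_two_of_testBit _ fun i hi => Bool.eq_false_iff.2 fun e => (h i e).not_ge hi

/-- the set of values -/
noncomputable def om (f : ℕ → ℕ) (p : ℕ → Bool) (N : ℕ) : ℕ := Nat.rec (motive := fun _ => ℕ) (nat_lit 0)
  (fun c r => force r fun r => Bool.rec r (Nat.lor r (Nat.shiftLeft (nat_lit 1) (f c))) (p c)) N

theorem om_iff {f : ℕ → ℕ} {p : ℕ → Bool} {N v : ℕ} : (om f p N).testBit v = true ↔ ∃ c < N, p c = true ∧ f c = v := by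
  induction N with
  | zero => exact ⟨fun e => by simp [om] at e, by simp⟩
  | succ N ih =>
    have e : om f p (N + 1) = Bool.rec (om f p N) (om f p N ||| 1 <<< f N) (p N) :=
      force_eq (om f p N) fun r => Bool.rec (motive := fun _ => ℕ) r (r ||| 1 <<< f N) (p N)
    rw [e, Nat.exists_lt_succ_right, ← ih]
    cases p N
    · simp
    · simp [Nat.one_shiftLeft, Nat.testBit_two_pow]

attribute [irreducible] om

/-- negation -/
noncomputable def bn (a : Bool) : Bool := Bool.rec true false a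

theorem bn_iff {a : Bool} : bn a = true ↔ ¬ a = true := by cases a <;> simp [bn]

/-- list membership -/
noncomputable def lm (a : ℕ) (l : List ℕ) : Bool := lany (Nat.beq a) l

theorem lm_iff {a : ℕ} {l : List ℕ} : lm a l = true ↔ a ∈ l := by simp [lm, lany_iff]

/-- the set of entries -/
noncomputable def lk (l : List ℕ) : ℕ := List.rec (motive := fun _ => ℕ) (nat_lit 0)
  (fun s _ r => Nat.lor r (Nat.shiftLeft (nat_lit 1) s)) l

theorem lk_iff {l : List ℕ} {v : ℕ} : (lk l).testBit v = true ↔ v ∈ l := by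
  induction l with
  | nil => simp [lk]
  | cons a l ih =>
    rw [show lk (a :: l) = lk l ||| 1 <<< a from rfl, List.mem_cons, ← ih, Nat.testBit_or, Bool.or_eq_true,
      Nat.one_shiftLeft, Nat.testBit_two_pow, decide_eq_true_iff, or_comm, eq_comm]

/-- a table of logarithms -/
noncomputable def lgT : ℕ := Nat.rec (motive := fun _ => ℕ) (nat_lit 0) (fun b r => force r fun r =>
  Nat.add r (Nat.shiftLeft b (Nat.mul 8 (Nat.mod (Nat.shiftLeft (nat_lit 1) b) 197)))) 191

/-- the least element -/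
@[irreducible] noncomputable def lg (L : ℕ) : ℕ := gx 8 lgT (Nat.mod (Nat.xor L (Nat.land L (Nat.sub L 1))) 197)

/-- a loop over a set -/
noncomputable def allB (f : ℕ → Bool) (k : ℕ) : ℕ → Bool := Nat.rec (motive := fun _ => ℕ → Bool) (fun _ => false)
  (fun _ ih L => Bool.rec (force (lg L) fun b => Bool.rec false
    (ih (Nat.xor L (Nat.shiftLeft (nat_lit 1) b))) (f b)) true (Nat.beq L 0)) k

theorem allB_spec {f : ℕ → Bool} {k : ℕ} : ∀ {L}, allB f k L = true → ∀ b, L.testBit b = true → f b = true := by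
  induction k with
  | zero => exact fun h => absurd h Bool.false_ne_true
  | succ k ih =>
    intro L h b hb
    obtain ⟨p, q⟩ := brec_and.1 (fe ((brec_or.1 h).resolve_left fun e => by simp [beq_iff.1 e] at hb))
    by_cases e : b = lg L
    · exact e ▸ p
    · refine ih q b ((Nat.testBit_xor _ _ _).trans ?_)
      rw [hb, show Nat.shiftLeft (nat_lit 1) (lg L) = 2 ^ lg L from Nat.one_shiftLeft _, Nat.testBit_two_pow]
      simp [Ne.symm e]

/-- one step of the search -/
noncomputable def dfS (P : ℕ → ℕ → ℕ) (FX CM : ℕ → ℕ) (ih : List ℕ → ℕ → ℕ → Bool) (S : List ℕ) (K C L b : ℕ) :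
    Bool := imp (lall (fun s => force (P b s) fun p => Bool.rec (tb K p) true (Nat.ble (Nat.succ b) p)) S)
  (forceL (lmap (P b) S) fun S1 => forceL (b :: lapp S1 S) fun S' =>
    ih S' (Nat.land C (FX b)) (Nat.land (Nat.land L (CM b)) (Nat.xor (full 191) (lk S1))))

/-- the search -/
noncomputable def df (P : ℕ → ℕ → ℕ) (FX CM : ℕ → ℕ) (lf : List ℕ → ℕ → Bool) (k : ℕ) : List ℕ → ℕ → ℕ → Bool :=
  Nat.rec (motive := fun _ => List ℕ → ℕ → ℕ → Bool) (fun _ _ _ => false) (fun _ ih S C L =>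
    Bool.rec false (allB (dfS P FX CM ih S (lk S) C L) 192 L) (lf S C)) k

theorem df_spec {P : ℕ → ℕ → ℕ} {FX CM : ℕ → ℕ} {lf : List ℕ → ℕ → Bool} {A : ℕ → Prop} {Fx : ℕ → ℕ → Prop}
    (h1 : ∀ i, A i → i < 191) (h2 : ∀ i j, A i → A j → i ≠ j → A (P i j) ∧ P i j ≠ i ∧ P i (P i j) = j ∧
      (i < j → i < P i j → (CM i).testBit j = true) ∧ ∀ v, Fx i v → Fx j v → Fx (P i j) v)
    (h3 : ∀ i < 191, ∀ v < 2048, ((FX i).testBit v = true ↔ Fx i v)) (k : ℕ) : ∀ S C L, (∀ s ∈ S, A s) →
      (∀ c, A c → c ∉ S → L.testBit c = true) → (∀ v, C.testBit v = true ↔ v < 2048 ∧ ∀ s ∈ S, Fx s v) →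
      df P FX CM lf k S C L = true →
      ∃ S C, (∀ i, A i ↔ i ∈ S) ∧ (∀ v, C.testBit v = true ↔ v < 2048 ∧ ∀ s ∈ S, Fx s v) ∧ lf S C = true := by
  classical
  induction k with
  | zero => exact fun _ _ _ _ _ _ h => absurd h Bool.false_ne_true
  | succ k ih =>
    intro S C L a1 a2 a3 h
    obtain ⟨h, h'⟩ := brec_and.1 h
    by_cases q : ∃ b, A b ∧ b ∉ S
    swap
    · exact ⟨S, C, fun i => ⟨fun a => by_contra fun n => q ⟨i, a, n⟩, a1 i⟩, a3, h⟩
    obtain ⟨b, ⟨b1, b2⟩, mn⟩ : ∃ b, (A b ∧ b ∉ S) ∧ ∀ c, A c → c ∉ S → b ≤ c :=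
      ⟨Nat.find q, Nat.find_spec q, fun c x y => Nat.find_min' q ⟨x, y⟩⟩
    have ne : ∀ s ∈ S, b ≠ s := fun s hs e => b2 (e ▸ hs)
    change allB (dfS P FX CM (df P FX CM lf k) S (lk S) C L) 192 L = true at h'
    have e := allB_spec h' b (a2 b b1 b2)
    simp only [dfS, forceL_eq, force_eq, lmap_eq, lapp_eq] at e
    refine ih _ _ _ ?_ (fun c c1 c2 => ?_) (fun v => ?_) (imp_iff.1 e (lall_iff.2 fun s hs => ?_))
    · simp only [List.forall_mem_cons, List.forall_mem_append, List.forall_mem_map]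
      exact ⟨b1, fun s hs => (h2 b s b1 (a1 s hs) (ne s hs)).1, a1⟩
    · simp only [List.mem_cons, List.mem_append, not_or] at c2
      obtain ⟨x, y, u, w, -⟩ := h2 b c b1 c1 (Ne.symm c2.1)
      refine (Nat.testBit_and _ _ _).trans (Bool.and_eq_true_iff.2 ⟨(Nat.testBit_and _ _ _).trans
        (Bool.and_eq_true_iff.2 ⟨a2 c c1 c2.2.2, w ((mn c c1 c2.2.2).lt_of_ne (Ne.symm c2.1)) ((mn _ x fun m =>
          c2.2.1 (u ▸ List.mem_map_of_mem m)).lt_of_ne y.symm)⟩), (Nat.testBit_xor _ _ _).trans ?_⟩)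
      rw [testBit_full, Bool.eq_false_iff.2 (mt lk_iff.1 c2.2.1)]
      simp [h1 c c1]
    · refine Iff.trans (by rw [show Nat.land C (FX b) = C &&& FX b from rfl, Nat.testBit_and, Bool.and_eq_true, a3]) ?_
      simp only [List.forall_mem_cons, List.forall_mem_append, List.forall_mem_map]
      exact ⟨fun ⟨⟨x, y⟩, w⟩ => have w := (h3 b (h1 b b1) v x).1 w
        ⟨x, w, fun s hs => (h2 b s b1 (a1 s hs) (ne s hs)).2.2.2.2 v w (y s hs), y⟩,
        fun ⟨x, w, _, y⟩ => ⟨⟨x, y⟩, (h3 b (h1 b b1) v x).2 w⟩⟩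
    · obtain ⟨x, y, -⟩ := h2 b s b1 (a1 s hs) (ne s hs)
      exact brec_or.2 (or_iff_not_imp_right.2 fun n => ble_iff.2 ((mn _ x fun m =>
        n (tb_eq _ _ ▸ lk_iff.2 m)).lt_of_ne y.symm))

/-- the commutator of a vector with a matrix -/
noncomputable def cv (v x : ℕ) : ℕ := force v fun v => Nat.xor v (vm 11 v x)

theorem cv_eq (v x : ℕ) : cv v x = v ^^^ vm 11 v x := force_eq _ _

theorem cv_xor (u v x : ℕ) : cv (u ^^^ v) x = cv u x ^^^ cv v x := by
  rw [cv_eq, cv_eq, cv_eq, vm_xor]; ac_rfl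

/-- the list of commutators with a matrix -/
noncomputable def sp (x k : ℕ) : List ℕ := Nat.rec (motive := fun _ => List ℕ) [nat_lit 0] (fun j L => forceL L fun L =>
  force (cv (Nat.shiftLeft (nat_lit 1) j) x) fun g => Bool.rec (lapp L (lmap (Nat.xor g) L)) L (lm g L)) k

theorem sp_spec {x k : ℕ} (hk : k ≤ 11) : ∀ v ∈ sp x k, ∃ c < 2048, cv c x = v := by
  induction k with
  | zero => exact fun v hv => ⟨0, by norm_num, by rw [List.mem_singleton.1 hv, cv_eq, vm_zero]; rfl⟩
  | succ k ih =>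
    have e : sp x (k + 1) = Bool.rec (sp x k ++ (sp x k).map (cv (2 ^ k) x ^^^ ·)) (sp x k)
        (lm (cv (2 ^ k) x) (sp x k)) := by
      rw [← Nat.one_shiftLeft, ← lmap_eq, ← lapp_eq]
      exact (forceL_eq _ _).trans (force_eq _ _)
    rw [e]
    cases lm (cv (2 ^ k) x) (sp x k)
    · intro v hv
      rcases List.mem_append.1 hv with q | q
      · exact ih (by omega) v q
      · obtain ⟨w, q', rfl⟩ := List.mem_map.1 q
        obtain ⟨c, l, rfl⟩ := ih (by omega) w q'
        exact ⟨_, x11 (Nat.pow_lt_pow_right (a := 2) (n := 11) one_lt_two hk) l, cv_xor _ _ _⟩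
    · exact ih (by omega)

/-- the vectors with a given commutator -/
noncomputable def sol (y c k : ℕ) : ℕ := Nat.rec (motive := fun _ => ℕ) (full 2048) (fun j r => force r fun r =>
  Nat.land r (Nat.xor (Nat.xor (colP 11 2048 y j) (plane 2048 j)) (Bool.rec (full 2048) (nat_lit 0) (tb c j)))) k

theorem sol_spec {y c v : ℕ} (hv : v < 2048) (hc : c < 2048) (e : (sol y c 11).testBit v = true) : cv v y = c := by
  have : ∀ k ≤ 11, (sol y c k).testBit v = true → ∀ j < k, (cv v y).testBit j = c.testBit j := fun k hk => by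
    induction k with
    | zero => simp
    | succ k ih =>
      intro e j hj
      have q : sol y c (k + 1) = sol y c k &&& ((colP 11 2048 y k ^^^ plane 2048 k) ^^^
        Bool.rec (full 2048) 0 (tb c k)) := force_eq (sol y c k) fun r => r &&& ((colP 11 2048 y k ^^^ plane 2048 k) ^^^
          Bool.rec (motive := fun _ => ℕ) (full 2048) 0 (tb c k))
      rw [q, Nat.testBit_and, Bool.and_eq_true] at e
      rcases Nat.lt_succ_iff_lt_or_eq.1 hj with l | rfl
      · exact ih (by omega) e.1 j l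
      have := e.2
      rw [Nat.testBit_xor, Nat.testBit_xor, testBit_vm 11 v y hk hv, testBit_plane, tb_eq] at this
      rw [cv_eq, Nat.testBit_xor]
      rw [decide_eq_true hv, Bool.true_and, Bool.xor_comm (Nat.testBit _ _)] at this
      revert this
      generalize (v.testBit j ^^ (vm 11 v y).testBit j) = a
      cases c.testBit j
      · change (a ^^ (full 2048).testBit v) = true → _
        rw [testBit_full, decide_eq_true hv]
        cases a <;> simp
      · change (a ^^ Nat.testBit 0 v) = true → _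
        cases a <;> simp
  refine Nat.eq_of_testBit_eq fun j => ?_
  by_cases q : j < 11
  · exact this 11 le_rfl e j q
  have m : 2048 ≤ 2 ^ j := Nat.pow_le_pow_right (n := 2) (i := 11) two_pos (not_lt.1 q)
  rw [Nat.testBit_lt_two_pow (hc.trans_le m), Nat.testBit_lt_two_pow ((cv_eq _ _ ▸ x11 hv (v11 _ _)).trans_le m)]

/-- the union of a list of sets -/
noncomputable def un (f : ℕ → ℕ) (l : List ℕ) : ℕ := List.rec (motive := fun _ => ℕ) (nat_lit 0)
  (fun s _ r => Nat.lor r (f s)) l

theorem un_iff {f : ℕ → ℕ} {l : List ℕ} {v : ℕ} : (un f l).testBit v = true ↔ ∃ s ∈ l, (f s).testBit v = true := by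
  induction l with
  | nil => simp [un]
  | cons a l ih =>
    rw [show un f (a :: l) = un f l ||| f a from rfl, Nat.testBit_or, Bool.or_eq_true, ih]
    simp [or_comm]

theorem popc_le {F : ℕ} (l : F < 2 ^ 2048) : popc 6 342 F ≤ pop 2048 F := by
  have k : ∀ x, 2048 ≤ x → F.testBit x = false := fun x hx =>
    Nat.testBit_lt_two_pow (l.trans_le (Nat.pow_le_pow_right two_pos hx))
  rw [popc_eq (by norm_num), pop_eq (by norm_num) k]
  exact (Nat.mod_le _ _).trans (Finset.card_le_card fun i hi => mem_bits.2 ⟨not_le.1 fun q => by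
    simpa [k i q] using (mem_bits.1 hi).2, (mem_bits.1 hi).2⟩)

attribute [irreducible] sp sol un lk

/-- the product table -/
noncomputable def pt' (i j : ℕ) : ℕ := gx 8 (gx 1528 PT i) j

/-- failure of the inequality for the orders -/
noncomputable def dimF (PF : ℕ) (IM : ℕ → ℕ) (r C a : ℕ) : Bool :=
  Nat.ble (Nat.succ r) (Nat.mul (gx 8 PF a) (popc 6 342 (Nat.land C (IM a))))

/-- no vector acts injectively -/
noncomputable def kill (LP PF : ℕ) (IM : ℕ → ℕ) (Y : List ℕ) (r C : ℕ) (S M J : List ℕ) : Bool := Bool.rec false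
  (Nat.beq (un (fun b => un (fun c => sol b c 11) (0 :: J)) M) (full 2048))
  (lall (fun a => Bool.rec (force (gx 121 LP a) fun x => lall (fun j => lany (fun y => Bool.rec false
    (lany (fun b => Nat.beq (cv y b) j) M) (Nat.beq (vm 11 y x) y)) Y) J) true (dimF PF IM r C a)) S)

/-- the condition at a node -/
noncomputable def leaf (LP PF : ℕ) (IM : ℕ → ℕ) (Y : List ℕ) (J SV : List (List ℕ)) (S : List ℕ) (C : ℕ) : Bool :=
  force (Nat.mul (Nat.succ (llen S)) (pop 2048 C)) fun r => Bool.rec false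
    (Bool.rec (Bool.rec (forceL (lmap (gx 121 LP) S) fun M => lany (kill LP PF IM Y r C S M) J) true
      (lany (fun R => Nat.beq (lk S) (lk R)) SV)) true (lall (dimF PF IM r C) S))
    (Bool.rec (Nat.ble r 2047) true (Nat.beq (llen S) 0))

/-- the whole search -/
noncomputable def dfOK (LP PF : ℕ) (Y : List ℕ) (J SV : List (List ℕ)) : Bool :=
  force (pkc 2048 191 fun i => fixM 11 2048 (gx 121 LP i)) fun FX =>
  force (pkc 2048 191 fun i => force (gx 121 LP i) fun x => lk (sp x 11)) fun IM =>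
  force (pkc 191 191 fun b => om (fun c => c) (fun c => force (pt' b c) fun p => Bool.rec false (Bool.rec false
    (Nat.ble p 190) (Nat.ble (Nat.succ b) p)) (Nat.ble (Nat.succ b) c)) 191) fun CM => forceL Y fun Y =>
  Bool.rec false (df pt' (gx 2048 FX) (gx 191 CM) (leaf LP PF (gx 2048 IM) Y J SV) 7 [] (full 2048) (full 191))
    (allFrom (fun a => Nat.ble (gx 8 PF a) (pop 2048 (gx 2048 FX a))) (nat_lit 0) 191)

/-- the check of the product table -/
noncomputable def ptOK (LP : ℕ) : Bool := allFrom (fun i => force (gx 121 LP i) fun x => allFrom (fun j =>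
  force (gx 121 LP j) fun y => force (pt' i j) fun e => force (mm 11 x y) fun p => Bool.rec false
    (Bool.rec (Bool.rec (bn (Nat.beq p (mm 11 y x))) true (Nat.beq i j)) (Bool.rec false (Nat.beq (pt' i e) j)
      (Nat.beq p (gx 121 LP e))) (Nat.ble e 190)) (bn (Nat.beq e i))) (nat_lit 0) 191) (nat_lit 0) 191

end CF.RF
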