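import Cfsg.Agent.RF.D

/-! The search, for the two modules. -/

set_option autoImplicit false
set_option maxRecDepth 1000000

namespace CF.RF

theorem chk_dfC : dfOK LPC PFC [272, 256, 784] [[1024], [1536], [512]] [Strio, Soct] = true := by decide +kernel

theorem chk_dfG : dfOK LPG PFG [646, 648, 6, 518, 1606] [[256, 1024, 1280]] [Ssex] = true := by decide +kernel

theorem chk_ptC : ptOK LPC = true := by decide +kernel

theorem chk_ptG : ptOK LPG = true := by decide +kernel

end CF.RF
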