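import Cfsg.Agent.RF.D
import Cfsg.Agent.RF.A

/-! The Sylow subgroup, the Thompson subgroup and the centraliser of the central involution in the normaliser. -/

set_option autoImplicit false
set_option maxRecDepth 1000000
set_option linter.unusedSectionVars false

namespace CF.RF
open Cfsg Subgroup CF.Loc CF.LX CF.Comp CF.Dce CF.Comp.Mat CF.J4 CF.JP
open scoped commutatorElement

/-- the data of a configuration -/
structure Cn where
  (S J : List ℕ)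
  (I V1 : ℕ)
  F : List (ℕ × List ℕ)

/-- the three configurations -/
noncomputable def cnT : Cn := ⟨Strio, [0], 255, 3, Ftrio⟩
/-- the three configurations -/
noncomputable def cnO : Cn := ⟨Soct, [0, 512], 55, 1, Foct⟩
/-- the three configurations -/
noncomputable def cnS : Cn := ⟨Ssex, [0], 223, 1, Fsex⟩

/-- the data of a module -/
structure Dt where
  (L0 L Y r1 r2 EI : List ℕ)
  (w J GA G1 G2 : List (List ℕ))
  cs : List Cn
  n : List Net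
  pc : List (List ℕ × List (List ℕ))
  (cT cM : List Lvl)
  (LP PF PM oM oZ m mu e : ℕ)
  (wq tu : List (List (List ℕ)))

/-- the generators of the Sylow subgroup -/
def s10 : List (List ℕ) := [[1], [3], [5], [7], [9], [11], [13], [15], [17], [19]]

/-- the cocode module -/
noncomputable def dC : Dt := ⟨LBC, LC, [272, 256, 784], [27], [27], Ssex, wC, [[1024], [1536], [512]],
  lapp s10 [[27], [29]], [], [], [cnT, cnO], nC, pcC, cTC, cMC, LPC, PFC, PMC, 138240, 1771, 6, 15, 2, wqC, tuC⟩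

/-- the code module -/
noncomputable def dG : Dt := ⟨LBG, LG, [646, 648, 6, 518, 1606], [27, 27, 27, 27, 27], wrG, Soct, wG, [[256, 1024, 1280]],
  [[13], [15], [17], [19], [27]], [[29]], [[31]], [cnS], nG, pcG, cTG, cMG, LPG, PFG, PMG, 322560, 759, 4, 63, 4,
  wqG, tuG⟩

namespace Dt
variable (d : Dt)
/-- the table -/
noncomputable abbrev E : ℕ → ℕ := nth (mo 11) d.L
/-- the matrix of a word -/
noncomputable abbrev ev (w : List ℕ) : ℕ := evW (mm 11) (mo 11) d.E w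
/-- the permutations -/
noncomputable abbrev φ : ℕ → Pm := evs φ0 d.w
/-- the generators of the centraliser -/
noncomputable abbrev gM : List (List ℕ) := lapp d.GA (lapp d.G1 d.G2)
/-- the involutions -/
noncomputable abbrev mx (i : ℕ) : ℕ := gx 121 d.LP i
end Dt

/-- the first checks -/
structure Ok (d : Dt) : Prop where
  wt : wtOK (mm 11) (mo 11) (fun _ => true) (nth (mo 11) d.L0) d.w d.L = true
  ns : Bt.evsOK nP 24 5 d.n d.w = true
  gn : lall (fun p => sameW nP 24 5 (subst d.w p.1) p.2) [([21], [1]), ([23], [5]),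
    ([24, 22, 22, 23, 23, 22, 24, 22, 24, 22, 23, 22, 23, 23, 23, 23, 21, 21], [3])] = true
  pc : Bt.pcOK (eqM 11 d.E) 2 s10 d.pc = true
  cT : chainOK d.n 24 d.cT = true ∧ 1024 ≤ chainProd d.n 24 d.cT ∧ lall (wordIn s10) (cgens d.cT) = true
  cM : chainOK d.n 24 d.cM = true ∧ d.oM ≤ chainProd d.n 24 d.cM ∧ lall (wordIn d.gM) (cgens d.cM) = true
  oZ : d.oM * d.oZ = 244823040 ∧ d.oZ ≤ pop 2048 d.PM ∧ d.PM < 2 ^ 2048 ∧ tb d.PM 1024 = true
  iv : pcM 11 d.E (fun x => imp (Nat.beq (mm 11 x x) (mo 11)) (Bool.rec (bn (allFrom (fun i =>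
    bn (Nat.beq (d.mx i) x)) (nat_lit 0) 191)) true (Nat.beq x (mo 11)))) s10 = true
  fz : lall (fun w => Nat.beq (vm 11 1024 (d.ev w)) 1024) (lapp s10 d.gM) = true
  p1 : bfs 11 [d.E 21, d.E 23] 3600 [1024] 0 = d.PM
  p2 : allBin (fun v => imp (tb d.PM v) (lall (fun x => tb d.PM (vm 11 v x)) [d.E 21, d.E 22, d.E 23, d.E 24]))
    2048 11 0 = true
  df : dfOK d.LP d.PF d.Y d.J (d.cs.map Cn.S) = true
  pt : ptOK d.LP = true

variable {G : Type*} [Group G]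

/-- the setting -/
structure Fm (d : Dt) (V : Subgroup G) (ν : G → ℕ) (θ : G → Pm) (f : ℕ → G) (z : G) : Prop
    extends Gn V ν θ f d.φ d.L where
  ok : Ok d
  zV : z ∈ V
  ez : ν z = 1024

/-- the Sylow subgroup -/
def TT (V : Subgroup G) (f : ℕ → G) : Subgroup G := clo f s10 ⊔ V

/-- a coordinate subgroup -/
def SV {V : Subgroup G} {ν : G → ℕ} (C : Co 11 V ⊥ ν) (μ : ℕ) : Subgroup G where
  carrier := {v | v ∈ V ∧ ν v &&& μ = 0}
  one_mem' := ⟨one_mem _, by rw [C.one, Nat.zero_and]⟩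
  mul_mem' := fun {a b} ha hb => ⟨mul_mem ha.1 hb.1, by
    rw [C.mul a ha.1 b hb.1, Nat.and_xor_distrib_right, ha.2, hb.2]; rfl⟩
  inv_mem' := fun {a} ha => ⟨inv_mem ha.1, by rw [C.inv ha.1, ha.2]⟩

namespace F0
variable {V : Subgroup G} {ν : G → ℕ} {θ : G → Pm} (h : F0 V ν θ)
include h

theorem lt {v : G} (hv : v ∈ V) : ν v < 2048 := h.co.lt v hv

theorem inj {a b : G} (ha : a ∈ V) (hb : b ∈ V) (e : ν a = ν b) : a = b := inv_mul_eq_one.1 ((h.co.eq_iff ha hb).1 e)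

theorem ea : EA V := fun a ha => (h.co.ker _ (mul_mem ha ha)).1 (by rw [h.co.mul a ha a ha, Nat.xor_self])

theorem acv {g k : G} {x : ℕ} (a : Ac 11 V ν g x) (e : g⁻¹ * k ∈ V) : Ac 11 V ν k x := by
  have := h.co.cd.mul' a (h.mo_iff.2 e)
  rw [mul_inv_cancel_left] at this
  exact h.co.congr this fun c _ => by rw [vm_mm n11, vm_mo n11 (v11 _ _)]

theorem div {g k : G} {x : ℕ} (a : Ac 11 V ν g x) (b : Ac 11 V ν k x) : g⁻¹ * k ∈ V := h.mo_iff.1 (h.co.ac_div a b)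

theorem aci {g : G} {x : ℕ} (a : Ac 11 V ν g x) (e : g * g ∈ V) : Ac 11 V ν g⁻¹ x :=
  h.acv a (by simpa using inv_mem e)

theorem cmv {g y : G} {x : ℕ} (a : Ac 11 V ν g x) (e : g * g ∈ V) (hy : y ∈ V) :
    ⁅y, g⁆ ∈ V ∧ ν ⁅y, g⁆ = cv (ν y) x := by
  have k := norm_mem' a.1 hy
  rw [show ⁅y, g⁆ = y * (g * y * g⁻¹)⁻¹ by simp only [commutatorElement_def]; group]
  refine ⟨mul_mem hy (inv_mem k), ?_⟩
  rw [h.co.mul _ hy _ (inv_mem k), h.co.inv k, cv_eq, ← (h.aci a e).2 y hy, inv_inv]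

theorem fix_iff {g y : G} {x : ℕ} (a : Ac 11 V ν g x) (hy : y ∈ V) : vm 11 (ν y) x = ν y ↔ y * g = g * y := by
  rw [← a.2 y hy]
  exact ⟨fun e => by simpa [mul_assoc, inv_mul_eq_iff_eq_mul] using h.inj (norm_mem a.1 hy) hy e,
    fun e => by rw [mul_assoc, e, inv_mul_cancel_left]⟩

theorem card_V [Finite G] : Nat.card V = 2048 := by rw [h.co.card, card_bot]; rfl

theorem card_le [Finite G] {K : Subgroup G} {F : ℕ} (l : F < 2 ^ 2048) (e : ∀ g ∈ K, g ∈ V ∧ F.testBit (ν g) = true) :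
    Nat.card K ≤ pop 2048 F :=
  le_of_le_of_eq (Set.ncard_le_ncard (s := (K : Set G)) fun g hg => e g hg) (h.co.ncard_mask rfl (by norm_num) l)

theorem mask [Finite G] {F : ℕ} (l : F < 2 ^ 2048) : {v | v ∈ V ∧ F.testBit (ν v) = true}.ncard = pop 2048 F :=
  h.co.ncard_mask rfl (by norm_num) l

theorem le_card [Finite G] {K : Subgroup G} {F : ℕ} (l : F < 2 ^ 2048) (e : ∀ g ∈ V, F.testBit (ν g) = true → g ∈ K) :
    pop 2048 F ≤ Nat.card K :=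
  h.co.ncard_mask (N := 2048) rfl (by norm_num) l ▸ Set.ncard_le_ncard (t := K) fun g hg => e g hg.1 hg.2

theorem card_eq [Finite G] {K : Subgroup G} (l : K ≤ 𝐍(V)) (l' : V ≤ K) :
    Nat.card K = Nat.card (h.hom.im K l) * 2048 :=
  h.card_V ▸ h.hom.card_eq l fun g => ⟨fun hg => ⟨l' hg, (h.ker g (le_normalizer hg)).2 hg⟩,
    fun hg => (h.ker g (l hg.1)).1 hg.2⟩

theorem card_N [Finite G] : Nat.card 𝐍(V) = 244823040 * 2048 := by
  rw [h.card_eq le_rfl le_normalizer, ← card_M24]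
  congr 3; ext σ
  exact h.hom.mem_im.trans ⟨fun ⟨g, a, b⟩ => b ▸ h.mem g a, h.sur σ⟩

theorem simp {K : Subgroup G} (n : 𝐍(V) ≤ 𝐍(K)) (l : V ≤ K) : K ⊓ 𝐍(V) ≤ V ∨ 𝐍(V) ≤ K := by
  have := isSimpleGroup_M24
  have : ((h.hom.im (K ⊓ 𝐍(V)) inf_le_right).subgroupOf M24).Normal := ⟨fun a ha b => by
    obtain ⟨g, hg, e⟩ := (h.hom.mem_im (hT := inf_le_right)).1 ha
    obtain ⟨k, hk, e'⟩ := h.sur b b.2
    exact (h.hom.mem_im (hT := inf_le_right)).2 ⟨k * g * k⁻¹, ⟨norm_mem' (n hk) hg.1, (𝐍(V)).mul_mem ((𝐍(V)).mul_mem hk hg.2) ((𝐍(V)).inv_mem hk)⟩, by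
      rw [h.hom.conj hk hg.2, e, e']; rfl⟩⟩
  refine (this.eq_bot_or_eq_top).imp (fun e g hg => (h.ker g hg.2).1 ?_) fun e g hg => ?_
  · exact congrArg Subtype.val (mem_bot.1 (e.le (show (⟨θ g, h.mem g hg.2⟩ : M24) ∈ _ from
      (h.hom.mem_im (hT := inf_le_right)).2 ⟨g, hg, rfl⟩)))
  · obtain ⟨k, hk, e'⟩ := (h.hom.mem_im (hT := inf_le_right)).1 (e.ge (mem_top (⟨θ g, h.mem g hg⟩ : M24)))
    simpa using mul_mem hk.1 (l ((h.ker _ (mul_mem (inv_mem hk.2) hg)).1 (by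
      rw [h.hom _ (inv_mem hk.2) _ hg, h.hom.inv hk.2, e']; exact inv_mul_cancel _)))

end F0

theorem Gn.fm {d : Dt} {V : Subgroup G} {ν : G → ℕ} {θ : G → Pm} {f : ℕ → G} (h : Gn V ν θ f φ0 d.L0) (o : Ok d) :
    ∃ f z, Fm d V ν θ f z := (h.co.surj 1024 (by norm_num)).elim fun z p => ⟨_, z, h.evs h.toF0 o.wt, o, p.1, p.2⟩

namespace Fm
variable [Finite G] {d : Dt} {V : Subgroup G} {ν : G → ℕ} {θ : G → Pm} {f : ℕ → G} {z : G} (h : Fm d V ν θ f z)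
include h

local notation "T" => TT V f
local notation "N" => 𝐍(V)
local notation "H" => 𝐂₁(z)

theorem fN (i : ℕ) : f i ∈ N := (h.tb.odd i).1

theorem ac (w : List ℕ) : Ac 11 V ν (ev f w) (d.ev w) := h.co.cd.ev h.tb w

theorem rK : Reps D0 d.n d.φ := Bt.reps_evs r0 k5 h.ok.ns

theorem gen {K : Subgroup G} (l : V ≤ K) (a : f 10 ∈ K) (b : f 11 ∈ K) : N ≤ K := fun g hg => by
  have c := lall_iff.1 h.ok.gn
  simp only [List.forall_mem_cons] at c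
  have k : ∀ {u w}, sameW nP 24 5 (subst d.w u) w = true → wordIn [[21], [23]] u = true →
      ev φ0 w ∈ h.hom.im (K ⊓ N) inf_le_right := fun {u w} e q => h.hom.mem_im.2 ⟨ev f u,
    ⟨ev_mem_of_wordIn (by simpa [evL] using ⟨a, b⟩) q, (h.ac u).1⟩, by
      rw [h.hom.ev' h.fN h.ph, ev_evs, eq0 e]⟩
  obtain ⟨y, hy, e⟩ := h.hom.mem_im.1 (clo_le.2 (by
    simp only [List.forall_mem_cons]
    exact ⟨k c.1 (by decide +kernel), k c.2.2.1 (by decide +kernel), k c.2.1 (by decide +kernel), by simp⟩)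
    (M24_le0 (h.mem g hg)))
  simpa using mul_mem hy.1 (l ((h.ker _ (mul_mem (inv_mem hy.2) hg)).1 (by
    rw [h.hom _ (inv_mem hy.2) _ hg, h.hom.inv hy.2, e]; exact inv_mul_cancel _)))

theorem cN (ws : List (List ℕ)) : clo f ws ⊔ V ≤ N := sup_le (clo_le.2 fun w _ => (h.ac w).1) le_normalizer

theorem card_ge {ws : List (List ℕ)} {c : List Lvl} {m : ℕ} (e : chainOK d.n 24 c = true ∧ m ≤ chainProd d.n 24 c ∧
    lall (wordIn ws) (cgens c) = true) : m * 2048 ≤ Nat.card ↥(clo f ws ⊔ V) := by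
  rw [h.card_eq (h.cN ws) le_sup_right]
  exact Nat.mul_le_mul_right _ (e.2.1.trans (h.rK.chain_le (by norm_num) e.1 fun w hw => h.hom.mem_im.2
    ⟨ev f w, mem_sup_left (ev_mem_clo_of_wordIn (lall_iff.1 e.2.2 w hw)), h.hom.ev' h.fN h.ph w⟩))

theorem VT : V ≤ T := le_sup_right
theorem TN : T ≤ N := h.cN _

theorem T_pc {g : G} (hg : g ∈ T) : Ac 11 V ν (g ^ 2 ^ 10) (mo 11) ∧ ∀ Φ, pcM 11 d.E Φ s10 = true →
    ∃ x < 2 ^ (11 * 11), Ac 11 V ν g x ∧ Φ x = true :=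
  h.co.pc_all (fun _ _ => by rw [normalizer_eq_top]; trivial) h.tb h.ok.pc (fun _ => h.mo_iff.2) hg

theorem pT : IsPGroup 2 T := isPGroup_iff_forall.2 fun g hg =>
  ⟨10 + 1, by rw [pow_succ, pow_mul, pow_two, h.ea _ (h.mo_iff.1 (h.T_pc hg).1)]⟩

theorem sylN : IsSyl 2 T N := by
  haveI : Fact (Nat.Prime 2) := ⟨Nat.prime_two⟩
  obtain ⟨S, hS⟩ := exists_isSyl 2 N
  refine hS.of_card_le h.pT h.TN (le_trans ?_ (h.card_ge h.ok.cT))
  rw [hS.card_eq, h.card_N, show (244823040 * 2048 : ℕ).factorization 2 = 21 by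
    rw [Nat.factorization_def _ Nat.prime_two]; simp only [padicValNat]; decide +kernel]
  norm_num

theorem mxl (i : ℕ) : d.mx i < 2 ^ (11 * 11) := by rw [Dt.mx, gx_eq]; exact fld_lt _ _ _

theorem T_inv {g : G} (hg : g ∈ T) (e : g * g ∈ V) : g ∈ V ∨ ∃ i < 191, Ac 11 V ν g (d.mx i) := by
  obtain ⟨x, l, a, p⟩ := (h.T_pc hg).2 _ h.ok.iv
  refine (brec_or.1 (imp_iff.1 p (beq_iff.2 (h.co.uniq' (h.co.cd.mul' a a) (h.mo_iff.2 e) (mm_lt n11 _ _)
    (mo_lt n11))))).imp (fun q => h.mo_iff.1 ((beq_iff.1 q : x = mo 11) ▸ a)) fun q => ?_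
  simp only [bn_iff, allFrom_zero, beq_iff, not_forall, not_not] at q
  obtain ⟨i, hi, rfl⟩ := q
  exact ⟨i, hi, a⟩

theorem srch {W : Subgroup G} (l : W ≤ T) (e : EA W) : ∃ IM : ℕ → ℕ, ∃ S C,
    (∀ i, (i < 191 ∧ ∃ w ∈ W, Ac 11 V ν w (d.mx i)) ↔ i ∈ S) ∧ (∀ v ∈ V, C.testBit (ν v) = true ↔ v ∈ 𝐂(W)) ∧
    C < 2 ^ 2048 ∧ leaf d.LP d.PF IM d.Y d.J (d.cs.map Cn.S) S C = true ∧ ∀ i < 191, gx 8 d.PF i ≤
      pop 2048 (fixM 11 2048 (d.mx i)) ∧ ∀ v, (IM i).testBit v = true → ∃ c < 2048, cv c (d.mx i) = v := by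
  have c := h.ok.df
  have p := h.ok.pt
  simp only [dfOK, ptOK, force_eq, forceL_eq, brec_and, allFrom_zero, ble_iff, bn_iff, beq_iff] at c p
  have fx : ∀ i < 191, gx 2048 (pkc 2048 191 fun i => fixM 11 2048 (d.mx i)) i = fixM 11 2048 (d.mx i) := fun i hi =>
    gx_pkc (by norm_num) (fun k _ => lt_of_bits fun v q => ((fixM_iff (n := 11) rfl).1 q).1) hi
  obtain ⟨S, C, s1, s2, s3⟩ := df_spec (A := fun i => i < 191 ∧ ∃ w ∈ W, Ac 11 V ν w (d.mx i))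
    (Fx := fun i v => vm 11 v (d.mx i) = v) (fun _ a => a.1) (fun i j ⟨hi, a, ha, ea⟩ ⟨hj, b, hb, eb⟩ n => by
      obtain ⟨p1, p2⟩ := p i hi j hj
      cases q : Nat.ble (pt' i j) 190 <;> rw [q] at p2
      · refine absurd (beq_iff.2 (h.co.uniq' (h.co.cd.mul' ea eb) (e.comm a ha b hb ▸ h.co.cd.mul' eb ea)
          (mm_lt n11 _ _) (mm_lt n11 _ _))) (bn_iff.1 ((brec_or.1 p2).resolve_left (mt beq_iff.1 n)))
      obtain ⟨p2, p3⟩ := brec_and.1 p2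
      replace p2 : mm 11 (d.mx i) (d.mx j) = d.mx (pt' i j) := beq_iff.1 p2
      refine ⟨⟨Nat.lt_succ_of_le (ble_iff.1 q), a * b, mul_mem ha hb, p2 ▸ h.co.cd.mul' ea eb⟩, p1, beq_iff.1 p3,
        fun lt lt' => ?_, fun v x y => by rw [← p2, vm_mm n11, x, y]⟩
      rw [gx_pkc (by norm_num) (fun k _ => lt_of_bits fun v q => by obtain ⟨c, x, -, rfl⟩ := om_iff.1 q; exact x) hi]
      exact om_iff.2 ⟨j, hj, brec_and.2 ⟨ble_iff.2 lt, brec_and.2 ⟨ble_iff.2 lt', q⟩⟩, rfl⟩)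
    (fun i hi v hv => by rw [fx i hi]; exact (fixM_iff (n := 11) rfl).trans (and_iff_right hv)) 7 _ _ _ (by simp)
    (fun c a _ => by rw [testBit_full]; simp [a.1]) (fun v => by rw [testBit_full]; simp) c.2
  refine ⟨_, S, C, s1, fun v hv => (s2 _).trans ⟨fun q w hw => ?_, fun q => ⟨h.lt hv, fun s hs => ?_⟩⟩,
    lt_of_bits fun v q => ((s2 v).1 q).1, s3, fun i hi => ⟨fx i hi ▸ c.1 i hi, fun v q => sp_spec le_rfl v
      (lk_iff.1 (gx_pkc (W := 2048) (f := fun i => lk (sp (d.mx i) 11)) (by norm_num) (fun k _ => lt_of_bits fun v q => by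
        obtain ⟨c, x, rfl⟩ := sp_spec le_rfl v (lk_iff.1 q); exact cv_eq _ _ ▸ x11 x (v11 _ _)) hi ▸ q))⟩⟩
  · rcases h.T_inv (l hw) (e w hw ▸ one_mem V) with m | ⟨i, hi, a⟩
    · exact h.ea.comm _ m _ hv
    · exact ((h.fix_iff a hv).1 (q.2 i ((s1 i).1 ⟨hi, w, hw, a⟩))).symm
  · obtain ⟨-, w, hw, a⟩ := (s1 s).2 hs
    exact (h.fix_iff a hv).2 (q w hw).symm

theorem card_W {W : Subgroup G} (l : W ≤ T) (e : EA W) {S : List ℕ}
    (s : ∀ i, (i < 191 ∧ ∃ w ∈ W, Ac 11 V ν w (d.mx i)) ↔ i ∈ S) :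
    Nat.card W ≤ (S.length + 1) * Nat.card ↥(W ⊓ V) := by
  have := card_le_rel (A := W) (Z := V) (r := Ac 11 V ν) (fun g _ k _ x => h.div) (L := mo 11 :: S.map d.mx)
    fun g hg => (h.T_inv (l hg) (e g hg ▸ one_mem V)).elim (fun q => ⟨_, List.mem_cons_self, h.mo_iff.2 q⟩)
      fun ⟨i, hi, a⟩ => ⟨_, List.mem_cons_of_mem _ (List.mem_map_of_mem ((s i).1 ⟨hi, g, hg, a⟩)), a⟩
  simpa using this

theorem jT {W : Subgroup G} (l : W ≤ T) (e : EA W) (c : 2048 ≤ Nat.card W) : W = V := by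
  obtain ⟨IM, S, C, s1, s2, s3, s4, -⟩ := h.srch l e
  have k := h.card_W l e s1
  rcases brec_or.1 (brec_and.1 (fe s4)).1 with q | q
  · rw [beq_iff, llen_eq] at q
    rw [q, zero_add, one_mul] at k
    exact eq_of_le_of_card_ge ((eq_of_le_of_card_ge inf_le_left k).ge.trans inf_le_right) (h.card_V ▸ c)
  · rw [ble_iff, llen_eq] at q
    exact absurd ((c.trans k).trans ((Nat.mul_le_mul_left _ (h.card_le (K := W ⊓ V) s3 fun g hg =>
      ⟨hg.2, (s2 g hg.2).2 (e.le_cent hg.1)⟩)).trans q)) (by norm_num)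

theorem wc (g : G) (l : cj[g] V ≤ T) : g ∈ N := cj_eq_self_iff.1 (h.jT l (h.ea.cj g) (by rw [card_cj, h.card_V]))

theorem syl : IsSyl 2 T ⊤ := by
  haveI : Fact (Nat.Prime 2) := ⟨Nat.prime_two⟩
  exact isSyl_of_normalizer (h.sylN.mono (le_inf le_top le_normalizer) fun g hg =>
    h.wc g (cj_le_of_mem_normalizer hg.2 h.VT))

theorem fus {v g : G} (hv : v ∈ V) (hg : g * v * g⁻¹ ∈ V) : ∃ n ∈ N, n * v * n⁻¹ = g * v * g⁻¹ := by
  obtain ⟨c, hc, e⟩ := Held.control (C := 𝐂₁(g * v * g⁻¹)) h.wc h.syl h.VT (fun a ha => mem_c1.2 (h.ea.comm _ ha _ hg))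
    (g := g) (fun a ha => mem_c1.2 ((h.ea.cj g).comm a ha _ (conj_mem_cj g hv)))
  exact ⟨_, e, by rw [show c * g * v * (c * g)⁻¹ = c * (g * v * g⁻¹) * c⁻¹ by group, mem_c1.1 hc,
    mul_inv_cancel_right]⟩

theorem z1 : z ≠ 1 := fun e => by simpa [e, h.co.one] using h.ez
theorem zz : z * z = 1 := h.ea z h.zV

theorem mH {g : G} {x : ℕ} (a : Ac 11 V ν g x) : g ∈ H ↔ vm 11 1024 x = 1024 := by
  rw [← h.ez, h.fix_iff a h.zV, mem_c1, eq_comm]

theorem VH : V ≤ H := fun v hv => mem_c1.2 (h.ea.comm _ hv _ h.zV)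

theorem cH {ws : List (List ℕ)} (l : ∀ w ∈ ws, w ∈ s10 ++ d.gM) : clo f ws ⊔ V ≤ H :=
  sup_le (clo_le.2 fun w hw => (h.mH (h.ac w)).2 (beq_iff.1 (lall_iff.1 h.ok.fz w (lapp_eq _ _ ▸ l w hw)))) h.VH

theorem TH : T ≤ H := h.cH fun _ => List.mem_append_left _

theorem sylH : IsSyl 2 T H := h.syl.mono h.TH le_top

theorem pm1 {v : G} (hv : v ∈ V) (e : d.PM.testBit (ν v) = true) : ∃ n ∈ N, n⁻¹ * z * n = v := by
  obtain ⟨n, hn, q⟩ := bfs_one (n := 11) (P := fun c => ∃ n ∈ N, ν (n⁻¹ * z * n) = c) (fun m hm c _ ⟨n, hn, q⟩ => by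
    obtain ⟨i, a⟩ : ∃ i, Ac 11 V ν (f i) m := by
      rcases List.mem_pair.1 hm with rfl | rfl
      exacts [⟨10, h.tb.odd 10⟩, ⟨11, h.tb.odd 11⟩]
    exact ⟨n * f i, mul_mem hn a.1, by rw [← q, ← a.2 _ (norm_mem hn h.zV)]; congr 1; group⟩)
    (st := [1024]) (by simpa using ⟨1, one_mem _, by simpa using h.ez⟩) (by rw [h.ok.p1, tb_eq]; exact e)
  exact ⟨n, hn, h.inj (norm_mem hn h.zV) hv q⟩

theorem pm2 {g : G} (hg : g * z * g⁻¹ ∈ V) : d.PM.testBit (ν (g * z * g⁻¹)) = true := by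
  obtain ⟨n, hn, e⟩ := h.fus h.zV hg
  let K : Subgroup G :=
    { carrier := {n | n ∈ N ∧ ∀ v ∈ V, (d.PM.testBit (ν (n * v * n⁻¹)) = true ↔ d.PM.testBit (ν v) = true)}
      one_mem' := ⟨one_mem _, by simp⟩
      mul_mem' := fun {a b} ha hb => ⟨mul_mem ha.1 hb.1, fun v hv => by
        rw [← hb.2 v hv, ← ha.2 _ (norm_mem' hb.1 hv), show a * b * v * (a * b)⁻¹ = a * (b * v * b⁻¹) * a⁻¹ by group]⟩
      inv_mem' := fun {a} ha => ⟨inv_mem ha.1, fun v hv => by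
        rw [← ha.2 _ (norm_mem' (inv_mem ha.1) hv)]; congr! 4; group⟩ }
  have c : ∀ v < 2048, d.PM.testBit v = true → ∀ x ∈ [d.E 21, d.E 22, d.E 23, d.E 24],
      d.PM.testBit (vm 11 v x) = true := fun v hv => by
    simpa only [imp_iff, tb_eq, lall_iff] using allBin_spec h.ok.p2 le_rfl v hv
  have k : ∀ i, d.E (2 * i + 1) ∈ [d.E 21, d.E 22, d.E 23, d.E 24] → d.E (2 * i + 2) ∈ [d.E 21, d.E 22, d.E 23, d.E 24] →
      f i ∈ K := fun i a b => ⟨h.fN i, fun v hv => ⟨fun q => by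
        have := c _ (h.lt (norm_mem' (h.fN i) hv)) q _ a
        rw [← (h.tb.odd i).2 _ (norm_mem' (h.fN i) hv)] at this
        simpa [mul_assoc] using this, fun q => by
        have := c _ (h.lt hv) q _ b
        rwa [← (h.tb.even i).2 _ hv, inv_inv] at this⟩⟩
  rw [← e, (h.gen (K := K) (fun a ha => ⟨le_normalizer ha, fun v hv => by
    rw [h.ea.comm a ha v hv, mul_inv_cancel_right]⟩) (k 10 (by simp) (by simp)) (k 11 (by simp) (by simp)) hn).2 z h.zV,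
    h.ez, ← tb_eq]
  exact h.ok.oZ.2.2.2

theorem card_M : Nat.card ↥(H ⊓ N) = d.oM * 2048 ∧ H ⊓ N = clo f d.gM ⊔ V := by
  have l : clo f d.gM ⊔ V ≤ H ⊓ N := le_inf (h.cH fun _ => List.mem_append_right _) (h.cN _)
  have c := h.card_ge h.ok.cM
  obtain ⟨o1, o2, o3, -⟩ := h.ok.oZ
  have k : Nat.card ↥(H ⊓ N) ≤ d.oM * 2048 := by
    have a := card_inf_mul_relIndex H N
    have b : d.oZ ≤ (H).relIndex N := by
      refine o2.trans ((h.mask o3).ge.trans ?_)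
      choose! s s1 s2 using fun v hv => h.pm1 (v := v) hv
      refine Nat.card_le_card_of_injective (fun v => (QuotientGroup.mk ⟨(s v.1)⁻¹, inv_mem (s1 _ v.2.1 v.2.2)⟩ :
        N ⧸ (H).subgroupOf N)) fun v w e => Subtype.ext ?_
      have := mem_c1.1 (mem_subgroupOf.1 (QuotientGroup.eq.1 e))
      rw [← s2 _ v.2.1 v.2.2, ← s2 _ w.2.1 w.2.2]
      simp only [coe_mul, coe_inv, inv_inv] at this
      rw [show (s w.1)⁻¹ * z * s w.1 = (s v.1)⁻¹ * (s v.1 * (s w.1)⁻¹ * z) * s w.1 by group, this]; group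
    rw [h.card_N, ← o1] at a
    have p : 0 < d.oZ := Nat.pos_of_ne_zero fun q => by simp [q] at o1
    refine Nat.le_of_mul_le_mul_right ((Nat.mul_le_mul_left _ b).trans (a.le.trans (le_of_eq (by ring)))) p
  exact ⟨k.antisymm (c.trans (card_le_of_le l)), (eq_of_le_of_card_ge l (k.trans c)).symm⟩

end Fm

end CF.RF
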