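import Cfsg.Agent.RF.E
import Cfsg.Agent.RF.DC

/-! The first checks, for the two modules. -/

set_option autoImplicit false
set_option maxRecDepth 1000000
set_option exponentiation.threshold 4096

namespace CF.RF

theorem okC : Ok dC := ⟨by decide +kernel, by decide +kernel, by decide +kernel, by decide +kernel,
  by decide +kernel, by decide +kernel, by decide +kernel, by decide +kernel, by decide +kernel, by decide +kernel,
  by decide +kernel, chk_dfC, chk_ptC⟩

theorem okG : Ok dG := ⟨by decide +kernel, by decide +kernel, by decide +kernel, by decide +kernel,
  by decide +kernel, by decide +kernel, by decide +kernel, by decide +kernel, by decide +kernel, by decide +kernel,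
  by decide +kernel, chk_dfG, chk_ptG⟩

end CF.RF
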