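import Cfsg.Agent.RF.E

/-! The classification of the configurations. -/

set_option autoImplicit false
set_option maxRecDepth 1000000
set_option linter.unusedSectionVars false
set_option synthInstance.maxSize 100000

namespace CF.RF
open Cfsg Subgroup CF.Loc CF.LX CF.Comp CF.Dce CF.Comp.Mat CF.J4 CF.JP
open scoped commutatorElement

/-- the set of vectors of a coordinate subspace -/
noncomputable def mS (μ : ℕ) : ℕ := Bt.maskP 2048 fun c => Nat.beq (Nat.land c μ) 0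

theorem mS_iff {μ v : ℕ} : (mS μ).testBit v = true ↔ v < 2048 ∧ v &&& μ = 0 :=
  by rw [mS, Bt.testBit_maskP, Bool.and_eq_true, decide_eq_true_iff, beq_iff]; rfl

theorem ex_bit {a b : ℕ} (h : a &&& b ≠ 0) : ∃ v, a.testBit v = true ∧ b.testBit v = true := by
  simpa using Nat.exists_testBit_of_ne_zero h

/-- a check for all vectors -/
def A2 (p : ℕ → Prop) [DecidablePred p] : Prop := allBin (fun v => decide (p v)) 2048 11 0 = true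

noncomputable instance (p : ℕ → Prop) [DecidablePred p] : Decidable (A2 p) := instDecidableEqBool _ _

theorem A2.sp {p : ℕ → Prop} [DecidablePred p] (h : A2 p) {v : ℕ} (hv : v < 2048) : p v :=
  of_decide_eq_true (allBin_spec h le_rfl v hv)

namespace Dt
variable (d : Dt)
/-- the generators of the normal subgroup -/
noncomputable abbrev sE : List (List ℕ) := s10.drop (10 - d.m)
/-- products of the generators -/
noncomputable abbrev hm (c : ℕ) : ℕ := chiC (mm 11) (mo 11) (fun i => d.ev (nth [] d.sE i)) d.m c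
/-- conjugation -/
noncomputable def cj (w : List ℕ) (x : ℕ) : ℕ := mm 11 (mm 11 (d.ev (winv w)) x) (d.ev w)
/-- membership in the normal subgroup -/
abbrev iE (x : ℕ) : Prop := x = mo 11 ∨ ∃ i ∈ d.EI, d.mx i = x
/-- the norm of a vector -/
noncomputable def nv (w : List ℕ) (e v : ℕ) : ℕ := v ^^^ vm 11 v (d.ev w) ^^^ vm 11 v (d.ev (wpow w e))
/-- the norm of a matrix -/
noncomputable def nm (w : List ℕ) (e x : ℕ) : ℕ := mm 11 (mm 11 x (d.cj w x)) (d.cj (wpow w e) x)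
end Dt

/-- the checks for a configuration -/
structure OkC (d : Dt) (c : Cn) : Prop where
  lt : ∀ i ∈ c.S, i < 191
  c1 : ∀ a ∈ c.S, ∀ j < 11, c.V1.testBit j = false →
    ∃ b ∈ c.S, sol (d.mx b) (cv (2 ^ j) (d.mx a)) 11 &&& fixM 11 2048 (d.mx a) ≠ 0
  c2 : ∀ j < 11, c.I.testBit j = false → ∃ t ∈ c.J, ∀ s ∈ [t, t ^^^ 2 ^ j], s < 2048 ∧
    ∃ b ∈ c.S, sol (d.mx b) s 11 &&& mS c.V1 ≠ 0
  c3 : A2 fun v => v &&& c.I = 0 ∨ ∃ b ∈ c.S, vm 11 v (d.mx b) ≠ v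
  c4 : A2 fun v => v &&& c.V1 = 0 ∨ ∃ b ∈ c.S, cv v (d.mx b) &&& c.I ≠ 0
  c5 : ∀ b ∈ c.S, b ∈ d.EI → A2 fun v => v &&& c.V1 = 0 ∨ cv v (d.mx b) % 1024 ≠ 0
  c6 : ∀ p ∈ c.F, (p.1 < 2048 ∧ p.1 &&& d.mu = 0 ∧ 0 ∈ p.2) ∧ (∀ b ∈ c.S, cv p.1 (d.mx b) % 1024 ∈ p.2) ∧
    (∀ b ∈ c.S, b ∈ d.EI ∨ ∃ j < 11, c.V1.testBit j = false ∧ cv (2 ^ j) (d.mx b) % 1024 ∉ p.2) ∧
    A2 fun v => v &&& (c.I &&& d.mu) = 0 ∨ v &&& c.V1 ≠ 0 ∨ (∃ b ∈ c.S, cv v (d.mx b) &&& d.mu ≠ 0) ∨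
      ∃ b ∈ c.S, b ∈ d.EI ∧ cv v (d.mx b) % 1024 ∉ p.2
  c7 : ∀ j < 11, d.mu.testBit j = false → c.I.testBit j = false ∨ ∃ p ∈ c.F, p.1 = 2 ^ j
  c8 : 1024 &&& c.I = 0 ∧ c.V1 &&& d.mu = c.V1 ∧ ∀ j < 11, ∀ b ∈ c.S, cv (2 ^ j) (d.mx b) &&& c.V1 = 0
  c9 : ((c.S.filter (· ∈ d.EI)).length + 1) * pop 2048 (mS c.I) ≤ pop 2048 (mS (c.I &&& d.mu))
  c10 : c.I &&& d.mu = d.mu ∨ ((∀ b ∈ c.S, b ∈ d.EI → ∃ a ∈ c.S, d.mx a = d.cj d.r1 (d.mx b) ∧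
      A2 fun v => v &&& c.I = 0 ∨ vm 11 v (d.mx b) ≠ v ∨ vm 11 v (d.mx a) ≠ v) ∧
    (A2 fun v => v &&& c.I = 0 → vm 11 v (d.ev d.r1) &&& c.I = 0 ∧ (d.nv d.r1 2 v &&& d.mu = 0 → v &&& d.mu = 0)) ∧
    ∀ p ∈ c.F, ∀ R ∈ [d.ev d.r1, d.ev (wpow d.r1 2)], A2 fun v => v &&& d.mu = 0 ∨ v &&& c.V1 ≠ 0 ∨
      ∃ i ∈ ([0, 1024, 256, 512, 32, 288] : List ℕ), i &&& c.I = 0 ∧ d.PM.testBit (v ^^^ vm 11 i R) ≠ d.PM.testBit (p.1 ^^^ i))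

variable {G : Type*} [Group G]

theorem mem_SV {V : Subgroup G} {ν : G → ℕ} {C : Co 11 V ⊥ ν} {μ : ℕ} {v : G} :
    v ∈ SV C μ ↔ v ∈ V ∧ ν v &&& μ = 0 := Iff.rfl

theorem SV_le {V K : Subgroup G} {ν : G → ℕ} {C : Co 11 V ⊥ ν} {μ : ℕ}
    (h : ∀ j < 11, μ.testBit j = false → ∀ v ∈ V, ν v = 2 ^ j → v ∈ K) : SV C μ ≤ K := fun v hv => by
  have i : ∀ a ∈ V, ∀ b ∈ V, ν a = ν b → a = b := fun a ha b hb e => inv_mul_eq_one.1 ((C.eq_iff ha hb).1 e)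
  refine xor_ind (n := 11) (P := fun c => ∀ v ∈ V, ν v = c &&& (2047 ^^^ μ) → v ∈ K) (fun v hv e => ?_)
    (fun j hj v hv e => ?_) (fun a _ b _ p q v hv e => ?_) _ (C.lt v hv.1) v hv.1 ?_
  · rw [i v hv 1 (one_mem _) (by rw [e, C.one, Nat.zero_and])]; exact one_mem K
  · rw [Nat.two_pow_and, Nat.testBit_xor, show (2047 : ℕ) = 2 ^ 11 - 1 from rfl, Nat.testBit_two_pow_sub_one,
      decide_eq_true hj] at e
    cases q : μ.testBit j <;> rw [q] at e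
    · exact h j hj q v hv (by simpa using e)
    · rw [i v hv 1 (one_mem _) (by rw [e, C.one]; simp)]; exact one_mem K
  · obtain ⟨x, hx, ex⟩ := C.surj (a &&& (2047 ^^^ μ)) (Nat.and_le_left.trans_lt ‹_›)
    obtain ⟨y, hy, ey⟩ := C.surj (b &&& (2047 ^^^ μ)) (Nat.and_le_left.trans_lt ‹_›)
    rw [i v hv _ (mul_mem hx hy) (by rw [e, C.mul x hx y hy, ex, ey, Nat.and_xor_distrib_right])]
    exact mul_mem (p x hx ex) (q y hy ey)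
  · rw [Nat.and_xor_distrib_left, hv.2, Nat.xor_zero, show (2047 : ℕ) = 2 ^ 11 - 1 from rfl, Nat.and_two_pow_sub_one_eq_mod,
      Nat.mod_eq_of_lt (C.lt v hv.1)]

theorem V_le {V K : Subgroup G} {ν : G → ℕ} (C : Co 11 V ⊥ ν) (h : ∀ j < 11, ∀ v ∈ V, ν v = 2 ^ j → v ∈ K) : V ≤ K :=
  fun v hv => SV_le (C := C) (μ := 0) (fun j hj _ => h j hj) ⟨hv, Nat.and_zero _⟩

theorem F0.card_SV [Finite G] {V : Subgroup G} {ν : G → ℕ} {θ : G → Pm} (h : F0 V ν θ) (μ : ℕ) :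
    Nat.card (SV h.co μ) = pop 2048 (mS μ) := by
  have l : mS μ < 2 ^ 2048 := lt_of_bits fun v q => (mS_iff.1 q).1
  exact (h.card_le (K := SV h.co μ) l fun g hg => ⟨hg.1, mS_iff.2 ⟨h.lt hg.1, hg.2⟩⟩).antisymm
    (h.le_card l fun g hg e => ⟨hg, (mS_iff.1 e).2⟩)

/-- a classified configuration -/
structure Cg {V : Subgroup G} {ν : G → ℕ} (C : Co 11 V ⊥ ν) (d : Dt) (c : Cn) (T D : Subgroup G) (x v : G) : Prop
    extends Cf T V D x v where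
  mem : c ∈ d.cs
  eV : D ⊓ V = SV C c.V1
  eI : II V D x = SV C c.I
  s1 : ∀ w ∈ W1 V D x, w ∈ V ∨ ∃ i ∈ c.S, Ac 11 V ν w (d.mx i)
  s2 : ∀ i ∈ c.S, ∃ w ∈ W1 V D x, Ac 11 V ν w (d.mx i)

namespace Fm
variable [Finite G] {d : Dt} {V : Subgroup G} {ν : G → ℕ} {θ : G → Pm} {f : ℕ → G} {z : G} (h : Fm d V ν θ f z)
include h

local notation "T" => TT V f

theorem dim {D : Subgroup G} {x v a : G} (k : Cf T V D x v) (ha : a ∈ W1 V D x) (aV : a ∉ V)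
    (h1 : ∀ e ∈ D, ⁅e, a⁆ ∈ II V D x) {n X C M : ℕ} (A : Ac 11 V ν a X)
    (hn : Nat.card (W1 V D x) ≤ n * Nat.card ↥(W1 V D x ⊓ V)) (l : C < 2 ^ 2048)
    (hC : ∀ v ∈ V, C.testBit (ν v) = true ↔ v ∈ 𝐂(W1 V D x))
    (hM : ∀ v, M.testBit v = true → ∃ c < 2048, cv c X = v) :
    pop 2048 (fixM 11 2048 X) * popc 6 342 (C &&& M) ≤ n * pop 2048 C := by
  have aa : a * a ∈ V := k.eW a (k.WW ha) ▸ one_mem V
  have p : HomOn V fun y => ⁅y, a⁆ := fun g hg y hy => by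
    beta_reduce
    rw [show ⁅g * y, a⁆ = g * ⁅y, a⁆ * g⁻¹ * ⁅g, a⁆ by simp only [commutatorElement_def]; group,
      h.ea.comm g hg _ (h.cmv A aa hy).1, mul_inv_cancel_right, h.ea.comm _ (h.cmv A aa hy).1 _ (h.cmv A aa hg).1]
  have c1 := p.card_eq (Z := V ⊓ 𝐂₁(a)) (inf_le_right : D ⊓ V ≤ V) fun g => ⟨fun hg =>
    have e := commutatorElement_eq_one_iff_mul_comm.2 (mem_c1.1 hg.2)
    ⟨⟨k.key a ha aV h1 g hg.1 (e ▸ one_mem _), hg.1⟩, e⟩,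
    fun hg => ⟨hg.1.2, mem_c1.2 (commutatorElement_eq_one_iff_mul_comm.1 hg.2)⟩⟩
  have IV : II V D x ≤ V ⊓ 𝐂(W1 V D x) := fun g hg => ⟨hg.1.2, fun w hw => k.eW.comm w (k.WW hw) g (k.WW hg.2)⟩
  have c2 := card_sup_mul_card_inf (H := V ⊓ 𝐂(W1 V D x) ⊓ p.im V le_rfl) (N := II V D x)
    fun g hg => centralizer_le_normalizer _ (k.cI hg.1.1)
  have c3 := card_le_of_le (sup_le (inf_le_left : _ ⊓ p.im V le_rfl ≤ _) IV)
  have c4 : Nat.card ↥(V ⊓ 𝐂(W1 V D x) ⊓ p.im V le_rfl ⊓ II V D x) ≤ Nat.card (p.im (D ⊓ V) inf_le_right) :=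
    card_le_of_le fun g hg => by
      obtain ⟨y, hy, rfl⟩ := p.mem_im.1 hg.1.2
      exact p.mem_im.2 ⟨y, ⟨k.key a ha aV h1 y hy hg.2, hy⟩, rfl⟩
  have c5 : pop 2048 (fixM 11 2048 X) ≤ Nat.card ↥(V ⊓ 𝐂₁(a)) := h.le_card (lt_of_bits fun v q =>
    ((fixM_iff (n := 11) rfl).1 q).1) fun g hg e => ⟨hg, mem_c1.2 ((h.fix_iff A hg).1 ((fixM_iff (n := 11) rfl).1 e).2)⟩
  have l' := (Nat.and_le_left (m := M)).trans_lt l
  have c6 := (popc_le l').trans (h.le_card (K := V ⊓ 𝐂(W1 V D x) ⊓ p.im V le_rfl) l' fun g hg e => by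
    rw [Nat.testBit_and, Bool.and_eq_true] at e
    obtain ⟨c, hc, q⟩ := hM _ e.2
    obtain ⟨y, hy, rfl⟩ := h.co.surj c hc
    exact ⟨⟨hg, (hC g hg).1 e.1⟩, p.mem_im.2 ⟨y, hy, h.inj (h.cmv A aa hy).1 hg ((h.cmv A aa hy).2.trans q)⟩⟩)
  have c7 := h.card_le (K := V ⊓ 𝐂(W1 V D x)) l fun g hg => ⟨hg.1, (hC g hg.1).2 hg.2⟩
  have c8 : Nat.card ↥(W1 V D x ⊓ V) ≤ Nat.card (II V D x) := card_le_of_le fun g hg => k.mI hg.1 hg.2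
  rw [card_cj, c1] at hn
  refine Nat.le_of_mul_le_mul_right ?_ (Nat.card_pos (α := II V D x))
  calc _ ≤ Nat.card ↥(V ⊓ 𝐂₁(a)) * (Nat.card ↥(V ⊓ 𝐂(W1 V D x) ⊓ p.im V le_rfl) * Nat.card (II V D x)) := by
        rw [mul_assoc]; gcongr
    _ ≤ Nat.card ↥(V ⊓ 𝐂₁(a)) * (pop 2048 C * Nat.card (p.im (D ⊓ V) inf_le_right)) := by
        rw [← c2]; gcongr; exact c3.trans c7
    _ ≤ n * Nat.card (II V D x) * pop 2048 C := by
        rw [mul_comm (pop 2048 C), ← mul_assoc, mul_comm (Nat.card ↥(V ⊓ 𝐂₁(a)))]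
        exact Nat.mul_le_mul_right _ (hn.trans (Nat.mul_le_mul_left _ c8))
    _ = _ := by ring

theorem cls (ne : ∀ i < 191, d.mx i ≠ mo 11) (o : ∀ c ∈ d.cs, OkC d c) {D : Subgroup G} {x v : G}
    (k : Cf T V D x v) : ∃ c, Cg h.co d c T D x v := by
  have eW : EA (W1 V D x) := fun a ha => k.eW a (k.WW ha)
  have sq : ∀ w ∈ W1 V D x, w * w ∈ V := fun w hw => eW w hw ▸ one_mem V
  have WT := k.WD.trans k.DT
  obtain ⟨IM, S, C, s1, s2, s3, s4, s5⟩ := h.srch WT eW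
  obtain ⟨a, ha, aI, h1⟩ := exists_fix (k.pT.to_le k.DT) k.WD inf_le_right k.nI k.nW fun l =>
    k.not_le fun w hw => (l hw).1.2
  have aV : a ∉ V := fun q => aI (k.mI ha q)
  obtain ⟨i, hi, A⟩ := (h.T_inv (WT ha) (sq a ha)).resolve_left aV
  have iS := (s1 i).1 ⟨hi, a, ha, A⟩
  have nd : ¬ dimF d.PF IM (Nat.mul (Nat.succ (llen S)) (pop 2048 C)) C i = true := fun q => by
    rw [dimF, ble_iff, llen_eq] at q
    exact (q.trans ((Nat.mul_le_mul_right _ (s5 i hi).1).trans (h.dim k ha aV h1 A (h.card_W WT eW s1) s3 s2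
      (s5 i hi).2))).not_gt (Nat.lt_succ_self _)
  have cI : ∀ y ∈ V, y * a = a * y → ∀ w ∈ W1 V D x, ⁅y, w⁆ ∈ II V D x := fun y hy e w hw =>
    k.VW ⟨k.key a ha aV h1 y hy (cm_one e), hy⟩ hw
  rcases brec_or.1 ((brec_or.1 (brec_and.1 (fe s4)).2).resolve_left fun q => nd (lall_iff.1 q i iS)) with q | q
  swap
  · rw [forceL_eq, lany_iff, lmap_eq] at q
    obtain ⟨J, -, q⟩ := q
    obtain ⟨q1, q2⟩ := brec_and.1 q
    have q3 := lall_iff.1 (fe ((brec_or.1 (lall_iff.1 q1 i iS)).resolve_left nd))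
    obtain ⟨_, hb, q4⟩ := un_iff.1 ((beq_iff.1 q2).symm ▸ (testBit_full 2048 _).trans (decide_eq_true (h.lt k.vV)))
    obtain ⟨b, hb', rfl⟩ := List.mem_map.1 hb
    obtain ⟨hb, w, hw, B⟩ := (s1 b).2 hb'
    obtain ⟨j, hj, q5⟩ := un_iff.1 q4
    obtain ⟨y, hy, rfl⟩ : ∃ y ∈ II V D x, ν y = j := by
      rcases List.mem_cons.1 hj with rfl | hj
      · exact ⟨1, one_mem _, h.co.one⟩
      obtain ⟨y, -, q6⟩ := lany_iff.1 (q3 j hj)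
      obtain ⟨q6, q7⟩ := brec_and.1 q6
      obtain ⟨_, m, q7⟩ := lany_iff.1 q7
      obtain ⟨b', m', rfl⟩ := List.mem_map.1 m
      obtain ⟨-, w', hw', B'⟩ := (s1 b').2 m'
      obtain ⟨y, hy, rfl⟩ := h.co.surj y (beq_iff.1 q6 ▸ v11 _ _)
      exact ⟨_, cI y hy ((h.fix_iff A hy).1 (beq_iff.1 q6)) w' hw', (h.cmv B' (sq _ hw') hy).2.trans (beq_iff.1 q7)⟩
    have := h.cmv B (sq _ hw) k.vV
    exact absurd (h.co.uniq' B (h.mo_iff.2 (k.inj hw (h.inj this.1 hy.1.2 (this.2.trans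
      (sol_spec (h.lt k.vV) (h.lt hy.1.2) q5)) ▸ hy))) (h.mxl b) (mo_lt n11)) (ne b hb)
  obtain ⟨_, hc', q⟩ := lany_iff.1 q
  obtain ⟨c, hc, rfl⟩ := List.mem_map.1 hc'
  have e : ∀ i, i ∈ S ↔ i ∈ c.S := fun i => by rw [← lk_iff, beq_iff.1 q, lk_iff]
  have o := o c hc
  have t : ∀ i ∈ c.S, ∃ w ∈ W1 V D x, Ac 11 V ν w (d.mx i) := fun i hi => ((s1 i).2 ((e i).2 hi)).2
  have l1 : SV h.co c.V1 ≤ D ⊓ V := SV_le fun j hj q y hy ey => by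
    obtain ⟨b, hb, r⟩ := o.c1 i ((e i).1 iS) j hj q
    obtain ⟨s, r1, r2⟩ := ex_bit r
    obtain ⟨r2, r3⟩ := (fixM_iff (n := 11) rfl).1 r2
    obtain ⟨s, hs, rfl⟩ := h.co.surj s r2
    obtain ⟨w, hw, B⟩ := t b hb
    have m := h.cmv A (sq a ha) hy
    have m' := h.cmv B (sq w hw) hs
    exact ⟨k.key a ha aV h1 y hy (h.inj m'.1 m.1 (by
      rw [m'.2, m.2, ey, sol_spec r2 (by rw [← ey, ← m.2]; exact h.lt m.1) r1]) ▸
        cI s hs ((h.fix_iff A hs).1 r3) w hw), hy⟩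
  have l2 : SV h.co c.I ≤ II V D x := SV_le fun j hj q y hy ey => by
    obtain ⟨s, -, r⟩ := o.c2 j hj q
    have u : ∀ s' ∈ [s, s ^^^ 2 ^ j], ∃ y ∈ II V D x, ν y = s' := fun s' hs' => by
      obtain ⟨l, b, hb, r⟩ := r s' hs'
      obtain ⟨s, r1, r2⟩ := ex_bit r
      obtain ⟨r2, r3⟩ := mS_iff.1 r2
      obtain ⟨s, hs, rfl⟩ := h.co.surj s r2
      obtain ⟨w, hw, B⟩ := t b hb
      exact ⟨_, k.VW (l1 ⟨hs, r3⟩) hw, (h.cmv B (sq w hw) hs).2.trans (sol_spec r2 l r1)⟩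
    obtain ⟨y1, m1, e1⟩ := u s (by simp)
    obtain ⟨y2, m2, e2⟩ := u (s ^^^ 2 ^ j) (by simp)
    rw [h.inj hy (mul_mem m1.1.2 m2.1.2) (by rw [h.co.mul _ m1.1.2 _ m2.1.2, e1, e2, ey, Nat.xor_xor_cancel_left])]
    exact mul_mem m1 m2
  have l3 : II V D x ≤ SV h.co c.I := fun y hy => ⟨hy.1.2, (o.c3.sp (h.lt hy.1.2)).resolve_right fun ⟨b, hb, r⟩ =>
    have ⟨w, hw, B⟩ := t b hb; r ((h.fix_iff B hy.1.2).2 (eW.comm y hy.2 w hw))⟩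
  refine ⟨c, k, hc, le_antisymm (fun y hy => ⟨hy.2, (o.c4.sp (h.lt hy.2)).resolve_right fun ⟨b, hb, r⟩ => ?_⟩) l1,
    le_antisymm l3 l2, fun w hw => (h.T_inv (WT hw) (sq w hw)).imp_right fun ⟨i, hi, B⟩ =>
      ⟨i, (e i).1 ((s1 i).1 ⟨hi, w, hw, B⟩), B⟩, t⟩
  obtain ⟨w, hw, B⟩ := t b hb
  exact r ((h.cmv B (sq w hw) hy.2).2 ▸ (l3 (k.VW hy hw)).2)

end Fm

end CF.RF
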