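import Cfsg.Agent.RF.F

/-! The checks for the three configurations. -/

set_option autoImplicit false
set_option maxRecDepth 1000000
set_option synthInstance.maxSize 100000
set_option maxHeartbeats 2000000

namespace CF.RF

theorem okT : OkC dC cnT := ⟨by decide +kernel, by decide +kernel, by decide +kernel, by decide +kernel,
  by decide +kernel, by decide +kernel, by decide +kernel, by decide +kernel, by decide +kernel, by decide +kernel,
  .inl (by decide +kernel)⟩

theorem okO : OkC dC cnO := ⟨by decide +kernel, by decide +kernel, by decide +kernel, by decide +kernel,
  by decide +kernel, by decide +kernel, by decide +kernel, by decide +kernel, by decide +kernel, by decide +kernel,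
  .inr (by decide +kernel)⟩

theorem okS : OkC dG cnS := ⟨by decide +kernel, by decide +kernel, by decide +kernel, by decide +kernel,
  by decide +kernel, by decide +kernel, by decide +kernel, by decide +kernel, by decide +kernel, by decide +kernel,
  .inr (by decide +kernel)⟩

end CF.RF
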