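import Cfsg.Agent.RF.F

/-! The extraspecial subgroup. -/

set_option autoImplicit false
set_option maxRecDepth 1000000
set_option linter.unusedSectionVars false
set_option synthInstance.maxSize 100000

namespace CF.RF
open Cfsg Subgroup CF.Loc CF.Even CF.LX CF.Comp CF.Dce CF.Comp.Mat CF.J4 CF.JP
open scoped commutatorElement

/-- the sum over a tuple -/
noncomputable def Dt.ts (d : Dt) (t : List (List ℕ)) (v : ℕ) : ℕ := (t.map fun w => vm 11 v (d.ev w)).foldr (· ^^^ ·) 0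

/-- the second checks -/
structure Ok2 (d : Dt) : Prop where
  oc : ∀ c ∈ d.cs, OkC d c
  ne : ∀ i < 191, d.mx i ≠ mo 11
  pc : Bt.pcOK (eqM 11 d.E) 2 d.sE (d.pc.drop (10 - d.m)) = true
  e1 : pcM 11 d.E (fun x => decide (d.iE x)) d.sE = true
  e2 : ∀ i ∈ d.EI, mm 11 (d.mx i) (d.mx i) = mo 11 ∧ ∃ c < 2 ^ d.m, d.hm c = d.mx i
  e3 : ∀ i < 191, ∀ j ∈ d.EI, d.mx j = d.mx i → i ∈ d.EI
  ve : ∀ i ∈ d.EI, (∀ j < 11, cv (2 ^ j) (d.mx i) &&& d.mu = 0 ∧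
      (d.mu.testBit j = false → cv (2 ^ j) (d.mx i) % 1024 = 0)) ∧
    (∃ j < 11, d.mu.testBit j = false ∧ vm 11 (2 ^ j) (d.mx i) ≠ 2 ^ j) ∧
    ∃ j < 11, ∃ k < 11, ∀ v ∈ [2 ^ j, 2 ^ k, 2 ^ j ^^^ 2 ^ k], cv v (d.mx i) % 1024 ≠ 0
  ce : A2 fun v => v % 1024 = 0 ∨ ∃ i ∈ d.EI, vm 11 v (d.mx i) ≠ v
  tu : pcM 11 d.E (fun x => decide ((∃ j < (11 : ℕ), d.mu.testBit j = false ∧ cv ((2 : ℕ) ^ j) x % 1024 ≠ 0) ∨ d.iE x))
    s10 = true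
  l1 : [19] ∈ d.sE ∧ d.sE.length = d.m ∧ d.ev [19] ≠ mo 11 ∧ d.cj [25] (d.ev [19]) = d.ev [19] ∧ 1024 &&& d.mu = 0
  l2 : A2 fun c => cv c (d.ev [19]) ∈ sp (d.ev [19]) 11
  l3 : A2 fun s => vm 11 s (d.ev [19]) ≠ s ∨ cv s (d.ev [25]) ∉ sp (d.ev [19]) 11 ∨ s ∈ sp (d.ev [19]) 11
  wq : ∀ i < d.m + 1, ∀ j < d.m + 1, mm 11 (d.ev (nth [] d.sE i)) (d.ev (nth [] d.sE j)) = mo 11 ∨
    ∃ w ∈ [nth [] (nth [] d.wq i) j], wordIn d.GA w = true ∧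
      d.cj w (d.ev [19]) = mm 11 (d.ev (nth [] d.sE i)) (d.ev (nth [] d.sE j))
  nE : ∀ k ∈ d.gM, (∀ w ∈ d.sE, d.iE (d.cj k (d.ev w))) ∧
    ∀ j < 11, d.mu.testBit j = false → vm 11 (2 ^ j) (d.ev k) &&& d.mu = 0
  gA : [27] ∈ d.GA ∧ (∀ i ∈ d.EI, d.nm [27] d.e (d.mx i) = mo 11) ∧ ∀ k ∈ d.GA,
    d.iE (mm 11 (d.ev [28]) (d.cj k (d.ev [27]))) ∨ (d.e = 2 ∧ d.iE (mm 11 (d.ev [27]) (d.cj k (d.ev [27]))))
  gV : (A2 fun v => v &&& d.mu = 0 ∨ d.nv [27] d.e v &&& d.mu ≠ 0) ∧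
    ∀ t < 64, ∃ s < 64, d.nv [27] d.e s &&& d.mu = t &&& d.mu
  gB : ∀ p ∈ [(d.r1, d.GA, d.G1), (d.r2, lapp d.GA d.G1, d.G2)], wordIn p.2.1 p.1 = true ∧
    d.ev (wpow p.1 3) = mo 11 ∧ (∀ i ∈ d.EI, d.nm p.1 2 (d.mx i) = mo 11) ∧ ∀ k ∈ p.2.2,
      (d.iE (mm 11 (d.ev (winv p.1)) (d.cj k (d.ev p.1))) ∨ d.iE (mm 11 (d.ev p.1) (d.cj k (d.ev p.1)))) ∧
      ∀ i ∈ d.EI, A2 fun v => v &&& d.mu = 0 ∨ cv v (d.mx i) % 1024 ≠ 0 ∨ d.nv p.1 2 v &&& d.mu ≠ 0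
  tp : (∀ t ∈ d.tu, t.length = 7 ∧ (∀ w ∈ t, wordIn d.GA w = true) ∧ ∀ p ∈ [(0, 1, 3), (0, 2, 4), (1, 2, 5), (3, 2, 6)],
      mm 11 (d.cj (nth [] t p.1) (d.ev [19])) (d.cj (nth [] t p.2.1) (d.ev [19])) = d.cj (nth [] t p.2.2) (d.ev [19])) ∧
    A2 fun v => v &&& d.mu ≠ 0 ∨ v % 1024 = 0 ∨ ∃ t ∈ d.tu, d.ts t v % 1024 ≠ 0
  fp : A2 fun v => v &&& d.mu ≠ 0 ∨ v % 1024 = 0 ∨ cv v (d.ev d.r1) % 1024 ≠ 0
  m6 : d.mu < 64

universe u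
variable {G : Type u} [Group G]

theorem sq_clo {Z : Subgroup G} {S : Set G} (n : ∀ a ∈ S, a ∈ 𝐍(Z)) (h1 : ∀ a ∈ S, a * a ∈ Z)
    (h2 : ∀ a ∈ S, ∀ b ∈ S, a * b * (a * b) ∈ Z) : ∀ g ∈ closure S, g * g ∈ Z := by
  have n' : closure S ≤ 𝐍(Z) := (closure_le _).2 n
  have c : ∀ g ∈ closure S, ∀ k ∈ closure S, ⁅k, g⁆ ∈ Z := fun g hg k hk => ((closure_le (cm Z g)).2 (fun b hb =>
    ⟨n b hb, cm_symm ((closure_le (cm Z b)).2 (fun a ha => ⟨n a ha, by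
      simpa [commutatorElement_def, mul_assoc] using mul_mem (mul_mem (h2 a ha b hb) (norm_mem (n b hb)
        (inv_mem (h1 a ha)))) (inv_mem (h1 b hb))⟩) hg).2⟩) hk).2
  refine fun g hg => closure_induction h1 (by simp) (fun a b ha hb p q => ?_) (fun a _ p => by simpa using inv_mem p) hg
  simpa [commutatorElement_def, mul_assoc] using mul_mem (mul_mem (norm_mem' (n' ha) (c a ha b hb)) p) q

theorem sq_cm {Z K : Subgroup G} (h : ∀ a ∈ K, a * a ∈ Z) {a b : G} (ha : a ∈ K) (hb : b ∈ K) : ⁅a, b⁆ ∈ Z := by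
  simpa [commutatorElement_def, mul_assoc] using mul_mem (mul_mem (h a ha) (h _ (mul_mem (inv_mem ha) hb)))
    (h _ (inv_mem hb))

theorem ex_ab {E U : Subgroup G} (n : E ≤ 𝐍(U)) (c : ∀ a ∈ E, a * a ∈ U) :
    ∃ (A : Type u) (_ : CommGroup A) (κ : G → A), HomOn E κ ∧ ∀ e ∈ E, (κ e = 1 ↔ e ∈ U) := by
  classical
  have := normal_subgroupOf_of_le_normalizer n
  refine ⟨E ⧸ U.subgroupOf E, { (inferInstance : Group (E ⧸ U.subgroupOf E)) with mul_comm := fun a b => ?_ },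
    fun g => if h : g ∈ E then QuotientGroup.mk ⟨g, h⟩ else 1, fun a ha b hb => ?_, fun e he => ?_⟩
  · obtain ⟨a, rfl⟩ := QuotientGroup.mk_surjective a
    obtain ⟨b, rfl⟩ := QuotientGroup.mk_surjective b
    exact QuotientGroup.eq.2 (by
      simpa [commutatorElement_def, mul_assoc, mem_subgroupOf] using sq_cm c (inv_mem b.2) (inv_mem a.2))
  · simp only [dif_pos ha, dif_pos hb, dif_pos (mul_mem ha hb)]; rfl
  · simp only [dif_pos he]; exact QuotientGroup.eq_one_iff _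

theorem two_and {μ j : ℕ} (h : μ.testBit j = false) : 2 ^ j &&& μ = 0 := by rw [Nat.two_pow_and, h]; simp

theorem nzp {g z : G} (h : g ∈ 𝐂₁(z)) : g ∈ 𝐍(zpowers z) :=
  centralizer_le_normalizer _ (by rwa [centralizer_zpowers])

/-- the norm -/
abbrev nm (g k e : G) : G := e * (g⁻¹ * e * g) * (k⁻¹ * e * k)

/-- the normal subgroup -/
noncomputable def EE (d : Dt) (V : Subgroup G) (f : ℕ → G) : Subgroup G := clo f d.sE ⊔ V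

/-- the setting -/
structure Fn (d : Dt) (V : Subgroup G) (ν : G → ℕ) (θ : G → Pm) (f : ℕ → G) (z : G) : Prop
    extends Fm d V ν θ f z where
  o2 : Ok2 d

/-- the extraspecial group -/
structure Fq (d : Dt) (V : Subgroup G) (ν : G → ℕ) (θ : G → Pm) (f : ℕ → G) (z : G) (Q : Subgroup G) : Prop
    extends Fn d V ν θ f z where
  QE : Q ≤ EE d V f
  QV : ∀ v ∈ V, (v ∈ Q ↔ ν v &&& d.mu = 0)
  EQ : ∀ e ∈ EE d V f, ∃ q ∈ Q, q⁻¹ * e ∈ V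
  sq : ∀ q ∈ Q, q * q ∈ zpowers z
  MQ : 𝐂₁(z) ⊓ 𝐍(V) ≤ 𝐍(Q)

namespace Fn
variable [Finite G] {d : Dt} {V : Subgroup G} {ν : G → ℕ} {θ : G → Pm} {f : ℕ → G} {z : G} (h : Fn d V ν θ f z)
include h

local notation "T" => TT V f
local notation "E" => EE d V f
local notation "N" => 𝐍(V)
local notation "H" => 𝐂₁(z)
local notation "U" => SV h.co d.mu

theorem acj {g : G} {x : ℕ} (a : Ac 11 V ν g x) (w : List ℕ) : Ac 11 V ν ((ev f w)⁻¹ * g * ev f w) (d.cj w x) :=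
  h.co.cd.mul' (h.co.cd.mul' (ev_winv f w ▸ h.ac (winv w)) a) (h.ac w)

theorem anm {g : G} {x : ℕ} (a : Ac 11 V ν g x) (w : List ℕ) (e : ℕ) :
    Ac 11 V ν (nm (ev f w) (ev f w ^ e) g) (d.nm w e x) :=
  h.co.cd.mul' (h.co.cd.mul' a (h.acj a w)) (ev_wpow f w e ▸ h.acj a (wpow w e))

theorem nnv {v : G} (hv : v ∈ V) (w : List ℕ) (e : ℕ) :
    nm (ev f w) (ev f w ^ e) v ∈ V ∧ ν (nm (ev f w) (ev f w ^ e) v) = d.nv w e (ν v) := by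
  have a := h.ac w
  have b := ev_wpow f w e ▸ h.ac (wpow w e)
  have a' := norm_mem a.1 hv
  have b' := norm_mem b.1 hv
  exact ⟨mul_mem (mul_mem hv a') b', by rw [h.co.mul _ (mul_mem hv a') _ b', h.co.mul _ hv _ a', a.2 v hv, b.2 v hv]; rfl⟩

theorem zp {v : G} (hv : v ∈ V) : v ∈ zpowers z ↔ ν v % 1024 = 0 := by
  have l := h.lt hv
  refine ⟨fun m => ?_, fun e => ?_⟩
  · rcases (mem_zpowers_invol (orderOf_eq_prime (p := 2) (by rw [pow_two, h.zz]) h.z1)).1 m with rfl | rfl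
    exacts [by rw [h.co.one], by rw [h.ez]]
  · rcases (by omega : ν v = 0 ∨ ν v = 1024) with e | e
    · rw [h.inj hv (one_mem _) (e.trans h.co.one.symm)]; exact one_mem _
    · rw [h.inj hv h.zV (e.trans h.ez.symm)]; exact mem_zpowers z

theorem zV' : zpowers z ≤ V := zpowers_le.2 h.zV
theorem zU : zpowers z ≤ U := zpowers_le.2 ⟨h.zV, h.ez ▸ h.o2.l1.2.2.2.2⟩
theorem VE : V ≤ E := le_sup_right
theorem ET : E ≤ T := sup_le_sup_right (clo_le.2 fun _ hw => ev_mem_clo f (List.mem_of_mem_drop hw)) V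
theorem EN : E ≤ N := h.ET.trans h.TN
theorem EH : E ≤ H := h.ET.trans h.TH

theorem mE {g : G} (hg : g ∈ E) : g ∈ V ∨ ∃ i ∈ d.EI, Ac 11 V ν g (d.mx i) := by
  obtain ⟨x, -, a, p⟩ := (h.co.pc_all (fun _ _ => by rw [normalizer_eq_top]; trivial) h.tb h.o2.pc
    (fun _ => h.mo_iff.2) hg).2 _ h.o2.e1
  exact (of_decide_eq_true p).imp (fun e : x = mo 11 => h.mo_iff.1 (e ▸ a)) fun ⟨i, hi, e⟩ => ⟨i, hi, e ▸ a⟩

theorem iE {g : G} {x : ℕ} (a : Ac 11 V ν g x) (e : d.iE x) : g ∈ E := by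
  rcases e with rfl | ⟨i, hi, rfl⟩
  · exact h.VE (h.mo_iff.1 a)
  obtain ⟨c, -, e⟩ := (h.o2.e2 i hi).2
  have := mul_mem (chi_mem (g := fun i => ev f (nth [] d.sE i)) (n := d.m) (fun i _ => mem_sup_left
    (Bt.evs_mem (fun w => ev_mem_clo f) i)) c) (h.VE (h.div (h.co.cd.chi (fun i _ => h.ac _) c) (e ▸ a)))
  rwa [mul_inv_cancel_left] at this

theorem iE' {g : G} {i : ℕ} (a : Ac 11 V ν g (d.mx i)) (hi : i < 191) (e : g ∈ E) : i ∈ d.EI := by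
  rcases h.mE e with m | ⟨j, hj, b⟩
  · exact absurd (h.co.uniq' a (h.mo_iff.2 m) (h.mxl i) (mo_lt n11)) (h.o2.ne i hi)
  · exact h.o2.e3 i hi j hj (h.co.uniq' b a (h.mxl j) (h.mxl i))

theorem sqV {g : G} (hg : g ∈ E) : g * g ∈ V := (h.mE hg).elim (fun m => mul_mem m m) fun ⟨i, hi, a⟩ =>
  h.mo_iff.1 ((h.o2.e2 i hi).1 ▸ h.co.cd.mul' a a)

theorem nU {g : G} {x : ℕ} (a : Ac 11 V ν g x) (e : ∀ j < 11, d.mu.testBit j = false → vm 11 (2 ^ j) x &&& d.mu = 0) :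
    g ∈ 𝐍(U) := inv_mem_iff.1 (mem_normalizer_of_cj_le (le_cj_iff.1
  (SV_le fun j hj q v hv ev => mem_cj.2 ⟨norm_mem a.1 hv, by rw [a.2 v hv, ev, e j hj q]⟩)))

theorem VU : V ≤ 𝐍(U) := fun v hv => centralizer_le_normalizer _ fun a ha => h.ea.comm a ha.1 v hv

theorem MU : H ⊓ N ≤ 𝐍(U) := h.card_M.2 ▸ sup_le (clo_le.2 fun w hw => h.nU (h.ac w) (h.o2.nE w hw).2) h.VU

theorem ME : H ⊓ N ≤ 𝐍(E) := h.card_M.2 ▸ sup_le (clo_le.2 fun w hw => inv_mem_iff.1 (mem_normalizer_of_cj_le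
    (le_cj_iff.1 (sup_le (clo_le.2 fun u hu => mem_cj.2 (h.iE (h.acj (h.ac u) w) ((h.o2.nE w hw).1 u hu)))
        fun _ hv => mem_cj.2 (h.VE (norm_mem (h.ac w).1 hv))))))
  (h.VE.trans le_normalizer)

theorem TM : T ≤ H ⊓ N := le_inf h.TH h.TN
theorem EU : E ≤ 𝐍(U) := h.ET.trans (h.TM.trans h.MU)

theorem cVE {v e : G} (hv : v ∈ V) (he : e ∈ E) : ⁅v, e⁆ ∈ U := by
  rcases h.mE he with m | ⟨i, hi, a⟩
  · exact cm_one (h.ea.comm v hv e m)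
  exact (V_le (K := cm U e) h.co (fun j hj v hv ev => have k := h.cmv a (h.sqV he) hv
    ⟨h.VU hv, k.1, by rw [k.2, ev]; exact ((h.o2.ve i hi).1 j hj).1⟩) hv).2

theorem cUE {v e : G} (hv : v ∈ U) (he : e ∈ E) : ⁅v, e⁆ ∈ zpowers z := by
  rcases h.mE he with m | ⟨i, hi, a⟩
  · exact cm_one (h.ea.comm v hv.1 e m)
  exact (SV_le (K := cm (zpowers z) e) (fun j hj q v hv ev => have k := h.cmv a (h.sqV he) hv
    ⟨nzp (h.VH hv), (h.zp k.1).2 (by rw [k.2, ev]; exact ((h.o2.ve i hi).1 j hj).2 q)⟩) hv).2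

theorem cU {e : G} (he : e ∈ E) (c : e ∈ 𝐂(U)) : e ∈ V := (h.mE he).elim id fun ⟨i, hi, a⟩ => by
  obtain ⟨j, hj, q, n⟩ := (h.o2.ve i hi).2.1
  obtain ⟨v, hv, ev⟩ := h.co.surj (2 ^ j) (Nat.pow_lt_pow_right one_lt_two hj)
  exact absurd (ev ▸ (h.fix_iff a hv).2 (c v ⟨hv, ev ▸ two_and q⟩)) n

theorem cE {v : G} (hv : v ∈ V) (c : v ∈ 𝐂(E)) : v ∈ zpowers z :=
  (h.zp hv).2 ((h.o2.ce.sp (h.lt hv)).resolve_right fun ⟨i, hi, n⟩ => by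
    obtain ⟨c', -, e⟩ := (h.o2.e2 i hi).2
    have a := h.co.cd.chi (g := fun i => ev f (nth [] d.sE i)) (n := d.m) (fun i _ => h.ac _) c'
    exact n (e ▸ (h.fix_iff a hv).2 (c _ (h.iE a (.inr ⟨i, hi, e.symm⟩))).symm))

theorem tU {t : G} (ht : t ∈ T) (c : ∀ u ∈ U, u⁻¹ * (t⁻¹ * u * t) ∈ zpowers z) : t ∈ E := by
  obtain ⟨x, -, a, p⟩ := (h.T_pc ht).2 _ h.o2.tu
  refine h.iE a ((of_decide_eq_true p).resolve_left fun ⟨j, hj, q, n⟩ => ?_)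
  obtain ⟨v, hv, ev⟩ := h.co.surj (2 ^ j) (Nat.pow_lt_pow_right one_lt_two hj)
  have m := c v ⟨hv, ev ▸ two_and q⟩
  rw [h.zp (h.zV' m), h.co.mul _ (inv_mem hv) _ (norm_mem a.1 hv), h.co.inv hv, a.2 v hv, ev, ← cv_eq] at m
  exact n m

theorem sqc {g c : G} {x : ℕ} (a : Ac 11 V ν g x) (e : g * g ∈ V) (hc : c ∈ V) :
    g * c * (g * c) = g * g * ⁅c, g⁆ := by
  have k := h.ea.comm _ hc _ (norm_mem a.1 hc)
  have k' := h.ea.comm _ hc _ e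
  calc _ = g * g * (g⁻¹ * c * g * c) := by group
    _ = g * g * (c * (g * ((g * g)⁻¹ * c * (g * g)) * g⁻¹)) := by rw [← k]; group
    _ = _ := by rw [mul_assoc (g * g)⁻¹, k', inv_mul_cancel_left, commutatorElement_def, h.ea.inv hc]; group

theorem lift : ∃ t, Ac 11 V ν t (d.ev [19]) ∧ t * t = 1 := by
  have a := h.ac [19]
  have b := h.ac [25]
  have e := h.sqV (mem_sup_left (ev_mem_clo f h.o2.l1.1))
  have c := h.div a (h.o2.l1.2.2.2.1 ▸ h.acj a [25])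
  have k := h.sqc a e c
  generalize ev f [19] = g at *
  generalize ev f [25] = y at *
  have m := h.cmv a e c
  have k' := b.2 _ e
  rw [show y⁻¹ * (g * g) * y = g * (g⁻¹ * (y⁻¹ * g * y)) * (g * (g⁻¹ * (y⁻¹ * g * y))) by group, k,
    h.co.mul _ e _ m.1, m.2] at k'
  obtain ⟨s, l, q⟩ := sp_spec le_rfl _ (((h.o2.l3.sp (h.lt e)).resolve_left (not_not.2 ((h.fix_iff a e).2
    (mul_assoc _ _ _)))).resolve_left (not_not.2 (by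
      rw [cv_eq, ← k', Nat.xor_xor_cancel_left]; exact h.o2.l2.sp (h.lt c))))
  obtain ⟨s, hs, rfl⟩ := h.co.surj s l
  have n := h.cmv a e hs
  exact ⟨g * s, h.acv a (by simpa using hs), by rw [h.sqc a e hs, h.inj n.1 e (n.2.trans q), h.ea _ e]⟩

theorem E_le {K : Subgroup G} (k : ∀ i < d.m + 1, ∀ g, Ac 11 V ν g (d.ev (nth [] d.sE i)) → g ∈ K) : E ≤ K := by
  refine sup_le (clo_le.2 fun w hw => ?_) fun v hv => k d.m (Nat.lt_succ_self _) v ?_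
  · obtain ⟨i, hi, rfl⟩ := exists_nth_of_mem [] hw
    exact k i (Nat.lt_succ_of_lt (h.o2.l1.2.1 ▸ hi)) _ (h.ac _)
  · rw [nth_of_le _ h.o2.l1.2.1.le, Dt.ev, evW_nil]; exact h.mo_iff.2 hv

theorem aE {g : G} {i : ℕ} (a : Ac 11 V ν g (d.ev (nth [] d.sE i))) : g ∈ E := by
  have := mul_mem (mem_sup_left (Bt.evs_mem (fun w => ev_mem_clo f) i) : ev f (nth [] d.sE i) ∈ E)
    (h.VE (h.div (h.ac _) a))
  rwa [mul_inv_cancel_left] at this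

theorem gM {ws : List (List ℕ)} (l : ∀ w ∈ ws, w ∈ d.gM) : clo f ws ≤ H ⊓ N :=
  h.card_M.2 ▸ clo_le.2 fun w hw => mem_sup_left (ev_mem_clo f (l w hw))

theorem AM : clo f d.GA ≤ H ⊓ N := h.gM fun _ hw => by rw [Dt.gM, lapp_eq]; exact List.mem_append_left _ hw

theorem cjv {g k a : G} {x : ℕ} {w : List ℕ} (e : k = ev f w) (p : Ac 11 V ν a x) (q : Ac 11 V ν g (d.cj w x)) :
    Ac 11 V ν (k * g * k⁻¹) x := h.acv p (by
  simpa [e, mul_assoc] using norm_mem' (h.ac w).1 (h.div (h.acj p w) q))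

theorem sq_gen {K Z : Subgroup G} (KE : K ≤ E) (e : ∀ e ∈ E, ∃ q ∈ K, q⁻¹ * e ∈ V) (nK : clo f d.GA ≤ 𝐍(K))
    (nZ : H ⊓ N ≤ 𝐍(Z)) (b : ∀ g ∈ K, Ac 11 V ν g (d.ev [19]) → g * g ∈ Z) : ∀ g ∈ K, g * g ∈ Z := by
  let S := {g | g ∈ K ∧ ∃ i < d.m + 1, Ac 11 V ν g (d.ev (nth [] d.sE i))}
  have l : closure S ≤ K := (closure_le _).2 fun _ a => a.1
  have sV : ∀ v ∈ K, v ∈ V → v ∈ S := fun v a hv => ⟨a, d.m, Nat.lt_succ_self _, by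
    rw [nth_of_le _ h.o2.l1.2.1.le, Dt.ev, evW_nil]; exact h.mo_iff.2 hv⟩
  have p : ∀ a ∈ S, ∀ c ∈ S, a * c * (a * c) ∈ Z := fun a ⟨a1, i, hi, a2⟩ c ⟨c1, j, hj, c2⟩ => by
    have m := h.co.cd.mul' a2 c2
    rcases h.o2.wq i hi j hj with q | ⟨w, -, w1, q⟩
    · rw [q] at m; rw [h.ea _ (h.mo_iff.1 m)]; exact one_mem Z
    rw [← q] at m
    have k := ev_mem_clo_of_wordIn (f := f) w1
    simpa [mul_assoc] using norm_mem (nZ (h.AM k)) (b _ (norm_mem' (nK k) (mul_mem a1 c1)) (h.cjv rfl (h.ac _) m))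
  refine fun g hg => sq_clo (S := S) (fun a ha => nZ (h.TM (h.ET (KE ha.1)))) (fun a ha => by
    simpa using p a ha 1 (sV 1 (one_mem K) (one_mem V))) p g ?_
  obtain ⟨s, hs, v, hv, rfl⟩ := (mem_sup_of_le_normalizer' ((l.trans KE).trans h.EN)).1 (h.E_le (K := closure S ⊔ V)
    (fun i hi y a => by
      obtain ⟨q, q1, q2⟩ := e y (h.aE a)
      simpa using mul_mem (mem_sup_left (subset_closure (show q ∈ S from ⟨q1, i, hi, h.acv a (by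
        simpa using inv_mem q2)⟩))) (mem_sup_right q2)) (KE hg))
  exact mul_mem hs (subset_closure (sV v (by simpa using mul_mem (inv_mem (l hs)) hg) hv))

theorem sqE : ∀ g ∈ E, g * g ∈ U := h.sq_gen le_rfl (fun e he => ⟨e, he, by simp⟩) (h.AM.trans h.ME) h.MU
  fun g hg a => by
    obtain ⟨t, b, tt⟩ := h.lift
    have c := h.div b a
    have := h.sqc b (tt ▸ one_mem V) c
    rw [mul_inv_cancel_left, tt, one_mul] at this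
    exact this ▸ h.cVE c (by simpa using mul_mem hg (inv_mem (h.VE c)))

theorem exQ {g : G} (hg : g ∈ H ⊓ N) (n : ℕ) : ∃ Q : Subgroup G, (∀ e, e ∈ Q ↔ e ∈ E ∧ nm g (g ^ n) e ∈ U) ∧
    (∀ a ∈ E, ∀ b ∈ E, nm g (g ^ n) a * nm g (g ^ n) b ∈ U → a * b ∈ Q) ∧ ∀ k ∈ H ⊓ N, (g⁻¹ * (k⁻¹ * g * k) ∈ E ∨ n = 2 ∧ g * (k⁻¹ * g * k) ∈ E) → k ∈ 𝐍(Q) := by
  obtain ⟨A, _, κ, p, q⟩ := ex_ab h.EU h.sqE
  have c : ∀ a ∈ H ⊓ N, ∀ e ∈ E, a⁻¹ * e * a ∈ E := fun a ha e he => norm_mem (h.ME ha) he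
  have m : ∀ a ∈ H ⊓ N, ∀ b ∈ H ⊓ N, ∀ e ∈ E, (nm a b e ∈ U ↔ κ e * κ (a⁻¹ * e * a) * κ (b⁻¹ * e * b) = 1) :=
    fun a ha b hb e he => by
      rw [← q _ (mul_mem (mul_mem he (c a ha e he)) (c b hb e he)), p _ (mul_mem he (c a ha e he)) _ (c b hb e he),
        p _ he _ (c a ha e he)]
  have t : ∀ a ∈ H ⊓ N, ∀ b, a⁻¹ * b ∈ E → ∀ e ∈ E, κ (b⁻¹ * e * b) = κ (a⁻¹ * e * a) := fun a ha b k e he => by
    rw [show b⁻¹ * e * b = (a⁻¹ * b)⁻¹ * (a⁻¹ * e * a) * (a⁻¹ * b) by group, p _ (mul_mem (inv_mem k) (c a ha e he)) _ k,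
      p _ (inv_mem k) _ (c a ha e he), p.inv k, mul_right_comm, inv_mul_cancel, one_mul]
  have t' : ∀ a ∈ H ⊓ N, ∀ b, a⁻¹ * b ∈ E → ∀ e ∈ E, nm a (a ^ n) e ∈ U → nm b (b ^ n) e ∈ U := fun a ha b k e he => by
    have hb : b ∈ H ⊓ N := by simpa using mul_mem ha (h.TM (h.ET k))
    rw [m a ha _ (pow_mem ha n) e he, m b hb _ (pow_mem hb n) e he, t a ha b k e he, t _ (pow_mem ha n) (b ^ n) ?_ e he]
    · exact id
    induction n with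
    | zero => simp
    | succ n ih => simpa [pow_succ, mul_assoc] using mul_mem (c a ha _ ih) k
  have hn := pow_mem hg n
  have mu : ∀ a ∈ E, ∀ b ∈ E, nm g (g ^ n) a * nm g (g ^ n) b ∈ U → nm g (g ^ n) (a * b) ∈ U := fun a a1 b b1 e => by
    have j : ∀ y ∈ H ⊓ N, κ (y⁻¹ * (a * b) * y) = κ (y⁻¹ * a * y) * κ (y⁻¹ * b * y) := fun y hy => by
      rw [← p _ (c y hy a a1) _ (c y hy b b1)]; congr 1; group
    have i : ∀ a ∈ E, nm g (g ^ n) a ∈ E ∧ κ (nm g (g ^ n) a) = κ a * κ (g⁻¹ * a * g) * κ ((g ^ n)⁻¹ * a * g ^ n) :=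
      fun a a1 => ⟨mul_mem (mul_mem a1 (c g hg a a1)) (c _ hn a a1), by
        rw [p _ (mul_mem a1 (c g hg a a1)) _ (c _ hn a a1), p _ a1 _ (c g hg a a1)]⟩
    rw [← q _ (mul_mem (i a a1).1 (i b b1).1), p _ (i a a1).1 _ (i b b1).1, (i a a1).2, (i b b1).2] at e
    rwa [m g hg _ hn _ (mul_mem a1 b1), j g hg, j _ hn, p a a1 b b1, mul_mul_mul_comm (κ a), mul_mul_mul_comm]
  refine ⟨{ carrier := {e | e ∈ E ∧ nm g (g ^ n) e ∈ U}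
            one_mem' := ⟨one_mem _, by simp [nm]⟩
            mul_mem' := fun {a b} ⟨a1, a2⟩ ⟨b1, b2⟩ => ⟨mul_mem a1 b1, mu a a1 b b1 (mul_mem a2 b2)⟩
            inv_mem' := fun {a} ⟨a1, a2⟩ => ⟨inv_mem a1, ?_⟩ }, fun _ => Iff.rfl,
    fun a a1 b b1 e => ⟨mul_mem a1 b1, mu a a1 b b1 e⟩, fun k hk o =>
    mem_normalizer_of_conj_mem fun e ⟨he, e2⟩ => ⟨norm_mem' (h.ME hk) he, ?_⟩⟩
  · have j : ∀ y ∈ H ⊓ N, κ (y⁻¹ * a⁻¹ * y) = (κ (y⁻¹ * a * y))⁻¹ := fun y hy => by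
      rw [← p.inv (c y hy a a1)]; congr 1; group
    rw [m g hg _ hn _ a1] at a2
    rw [m g hg _ hn _ (inv_mem a1), j g hg, j _ hn, p.inv a1, ← mul_inv, ← mul_inv, a2, inv_one]
  · rw [show nm g (g ^ n) (k * e * k⁻¹) = k * nm (k⁻¹ * g * k) ((k⁻¹ * g * k) ^ n) e * k⁻¹ by
      rw [show (k⁻¹ * g * k) ^ n = k⁻¹ * g ^ n * k by simpa using conj_pow (a := k⁻¹) (b := g) (i := n)]
      simp only [nm]; group]
    refine norm_mem' (h.MU hk) (o.elim (fun o => t' g hg _ o e he e2) fun ⟨o1, o⟩ => t' g⁻¹ (inv_mem hg) _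
      (by rwa [inv_inv]) e he ?_)
    subst o1
    rw [show nm g⁻¹ (g⁻¹ ^ 2) e = g ^ 2 * ((g ^ 2)⁻¹ * e * g ^ 2 * (g⁻¹ * e * g) * e) * (g ^ 2)⁻¹ by
      simp only [nm]; group]
    refine norm_mem' (h.MU hn) ((q _ (mul_mem (mul_mem (c _ hn e he) (c g hg e he)) he)).1 ?_)
    rw [p _ (mul_mem (c _ hn e he) (c g hg e he)) _ he, p _ (c _ hn e he) _ (c g hg e he), ← (m g hg _ hn e he).1 e2]
    ac_rfl

theorem lam {a b : G} (ha : a ∈ V) (hb : b ∈ V) : ν (a * b) % 1024 = ν a % 1024 ^^^ ν b % 1024 := by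
  rw [h.co.mul a ha b hb]; exact Nat.xor_mod_two_pow (n := 10)

theorem lamU {u e : G} (hu : u ∈ U) (he : e ∈ E) : ν (e * u * e⁻¹) % 1024 = ν u % 1024 := by
  have c := cm_symm (h.cUE hu he)
  rw [show e * u * e⁻¹ = ⁅e, u⁆ * u by simp [commutatorElement_def], h.lam (h.zV' c) hu.1, (h.zp (h.zV' c)).1 c,
    Nat.zero_xor]

theorem cub {a b c : G} (ha : a ∈ E) (hb : b ∈ E) (hc : c ∈ E) :
    ν (a * a) % 1024 ^^^ (ν (b * b) % 1024 ^^^ (ν (c * c) % 1024 ^^^ (ν (a * b * (a * b)) % 1024 ^^^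
      (ν (a * c * (a * c)) % 1024 ^^^ (ν (b * c * (b * c)) % 1024 ^^^ ν (a * b * c * (a * b * c)) % 1024))))) = 0 := by
  have k : ∀ x ∈ E, ∀ y ∈ E, ⁅x, y⁆ ∈ U := fun x hx y hy => sq_cm h.sqE hx hy
  have s : ∀ x ∈ E, ∀ y ∈ E, ν (x * y * (x * y)) % 1024 =
      ν (x * x) % 1024 ^^^ ν ⁅x⁻¹, y⁆ % 1024 ^^^ ν (y * y) % 1024 := fun x hx y hy => by
    rw [← h.lam (h.sqV hx) (k _ (inv_mem hx) y hy).1, ← h.lam (mul_mem (h.sqV hx) (k _ (inv_mem hx) y hy).1) (h.sqV hy),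
      commutatorElement_def]
    congr 2; group
  rw [s _ (mul_mem ha hb) c hc, s a ha c hc, s b hb c hc, show ⁅(a * b)⁻¹, c⁆ = b⁻¹ * ⁅a⁻¹, c⁆ * b⁻¹⁻¹ * ⁅b⁻¹, c⁆ by
    simp only [commutatorElement_def]; group, h.lam (norm_mem' (h.EN (inv_mem hb)) (k _ (inv_mem ha) c hc).1)
    (k _ (inv_mem hb) c hc).1, h.lamU (k _ (inv_mem ha) c hc) (inv_mem hb)]
  refine Nat.eq_of_testBit_eq fun i => ?_
  simp only [Nat.testBit_xor, Nat.zero_testBit]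
  generalize Nat.testBit _ i = x1, Nat.testBit _ i = x2, Nat.testBit _ i = x3, Nat.testBit _ i = x4,
    Nat.testBit _ i = x5, Nat.testBit _ i = x6
  revert x1 x2 x3 x4 x5 x6; decide

theorem sqQ {Q : Subgroup G} (QE : Q ≤ E) (QV : ∀ v ∈ V, (v ∈ Q ↔ ν v &&& d.mu = 0))
    (EQ : ∀ e ∈ E, ∃ q ∈ Q, q⁻¹ * e ∈ V) (nQ : clo f d.GA ≤ 𝐍(Q)) : ∀ q ∈ Q, q * q ∈ zpowers z := by
  refine h.sq_gen QE EQ nQ (fun _ a => nzp a.1) fun g hg a => ?_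
  have w := h.sqE g (QE hg)
  refine (h.zp w.1).2 (((h.o2.tp.2.sp (h.lt w.1)).resolve_left (not_not.2 w.2)).resolve_right fun ⟨t, ht, n⟩ => n ?_)
  obtain ⟨t1, t2, t3⟩ := h.o2.tp.1 t ht
  let y : ℕ → G := fun i => (ev f (nth [] t i))⁻¹ * g * ev f (nth [] t i)
  have y1 : ∀ i, Ac 11 V ν (y i) (d.cj (nth [] t i) (d.ev [19])) := fun i => h.acj a _
  have y2 : ∀ i, y i ∈ Q := fun i => norm_mem (nQ (Bt.evs_mem (fun w hw => ev_mem_clo_of_wordIn (t2 w hw)) i)) hg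
  have y3 : ∀ i, vm 11 (ν (g * g)) (d.ev (nth [] t i)) = ν (y i * y i) := fun i => by
    rw [← (h.ac _).2 _ w.1]; congr 1; simp only [y]; group
  have y4 : ∀ a ∈ Q, ∀ b ∈ Q, ∀ x, Ac 11 V ν a x → Ac 11 V ν b x → ν (b * b) % 1024 = ν (a * a) % 1024 :=
    fun a ha b hb x p q => by
      have c := h.div p q
      have := h.sqc p (h.sqV (QE ha)) c
      have m := h.cUE ⟨c, (QV _ c).1 (mul_mem (inv_mem ha) hb)⟩ (QE ha)
      rw [mul_inv_cancel_left] at this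
      rw [this, h.lam (h.sqV (QE ha)) (h.zV' m), (h.zp (h.zV' m)).1 m, Nat.xor_zero]
  have y5 : ∀ p ∈ [(0, 1, 3), (0, 2, 4), (1, 2, 5), (3, 2, 6)], Ac 11 V ν (y p.1 * y p.2.1)
    (d.cj (nth [] t p.2.2) (d.ev [19])) := fun p hp => t3 p hp ▸ h.co.cd.mul' (y1 _) (y1 _)
  have c := h.cub (QE (y2 0)) (QE (y2 1)) (QE (y2 2))
  simp only [List.forall_mem_cons] at y5
  obtain ⟨q3, q4, q5, q6, -⟩ := y5
  rw [y4 _ (y2 3) _ (mul_mem (y2 0) (y2 1)) _ (y1 3) q3, y4 _ (y2 4) _ (mul_mem (y2 0) (y2 2)) _ (y1 4) q4,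
    y4 _ (y2 5) _ (mul_mem (y2 1) (y2 2)) _ (y1 5) q5, y4 _ (y2 6) _ (mul_mem (mul_mem (y2 0) (y2 1)) (y2 2)) _ (y1 6)
      (t3 (3, 2, 6) (by simp) ▸ h.co.cd.mul' q3 (y1 2)), ← y3, ← y3, ← y3, ← y3, ← y3, ← y3, ← y3] at c
  match t, t1 with
  | [_, _, _, _, _, _, _], _ =>
    simp only [Dt.ts, List.map, List.foldr, Nat.xor_zero, show 1024 = 2 ^ 10 from rfl, Nat.xor_mod_two_pow] at c ⊢
    exact c

theorem exists_Q : ∃ Q, Fq d V ν θ f z Q := by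
  obtain ⟨g1, g2, g3⟩ := h.o2.gA
  have gA := ev_mem_clo f g1
  obtain ⟨Q, q1, q3, q2⟩ := h.exQ (h.AM gA) d.e
  have QE : Q ≤ E := fun e he => ((q1 e).1 he).1
  have nu : ∀ {K : Subgroup G} {a b : G}, a ∈ 𝐍(K) → b ∈ 𝐍(K) → ∀ u ∈ K, nm a b u ∈ K := fun ha hb u hu =>
    mul_mem (mul_mem hu (norm_mem ha hu)) (norm_mem hb hu)
  have nv : ∀ {w n}, (∀ i ∈ d.EI, d.nm w n (d.mx i) = mo 11) → ∀ e ∈ E, nm (ev f w) (ev f w ^ n) e ∈ V :=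
    fun {w n} p e he => (h.mE he).elim (fun m => (h.nnv m w n).1) fun ⟨i, hi, a⟩ => h.mo_iff.1 (p i hi ▸ h.anm a w n)
  have QV : ∀ v ∈ V, (v ∈ Q ↔ ν v &&& d.mu = 0) := fun v hv => (q1 v).trans ⟨fun a =>
    (h.o2.gV.1.sp (h.lt hv)).resolve_right (not_not.2 ((h.nnv hv _ _).2 ▸ a.2.2)),
    fun a => ⟨h.VE hv, nu (h.MU (h.AM gA)) (h.MU (pow_mem (h.AM gA) _)) v ⟨hv, a⟩⟩⟩
  have UQ : U ≤ Q := fun u hu => (QV u hu.1).2 hu.2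
  have EQ : ∀ e ∈ E, ∃ q ∈ Q, q⁻¹ * e ∈ V := fun e he => by
    have n := nv g2 e he
    obtain ⟨s, l, q⟩ := h.o2.gV.2 _ (Nat.mod_lt (ν (nm (ev f [27]) (ev f [27] ^ d.e) e)) (by norm_num))
    obtain ⟨y, hy, rfl⟩ := h.co.surj s (by omega)
    have k := h.nnv hy [27] d.e
    refine ⟨_, q3 e he y (h.VE hy) ⟨mul_mem n k.1, ?_⟩, by simpa using hy⟩
    rw [h.co.mul _ n _ k.1, Nat.and_xor_distrib_right, k.2, q, show 64 = 2 ^ 6 from rfl,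
      ← Nat.and_two_pow_sub_one_eq_mod, Nat.and_assoc, Nat.and_comm (2 ^ 6 - 1), Nat.and_two_pow_sub_one_eq_mod,
      Nat.mod_eq_of_lt h.o2.m6, Nat.xor_self]
  have ex : ∀ {w : List ℕ} {n : ℕ} {P : Subgroup G}, (∀ k ∈ H ⊓ N, ((ev f w)⁻¹ * (k⁻¹ * ev f w * k) ∈ E ∨
      n = 2 ∧ ev f w * (k⁻¹ * ev f w * k) ∈ E) → k ∈ 𝐍(P)) → ∀ k ∈ d.gM, (d.iE (mm 11 (d.ev (winv w)) (d.cj k (d.ev w))) ∨
        n = 2 ∧ d.iE (mm 11 (d.ev w) (d.cj k (d.ev w)))) → ev f k ∈ 𝐍(P) := fun {w n P} p k hk o =>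
    p _ (h.gM (fun _ => id) (ev_mem_clo f hk)) (o.imp (h.iE (h.co.cd.mul' (ev_winv f w ▸ h.ac (winv w))
      (h.acj (h.ac w) k))) (And.imp_right (h.iE (h.co.cd.mul' (h.ac w) (h.acj (h.ac w) k)))))
  have nA : clo f d.GA ≤ 𝐍(Q) := clo_le.2 fun k hk => ex q2 k (by
    rw [Dt.gM, lapp_eq]; exact List.mem_append_left _ hk) (g3 k hk)
  have sq := h.sqQ QE QV EQ nA
  have nB : ∀ p ∈ [(d.r1, d.GA, d.G1), (d.r2, lapp d.GA d.G1, d.G2)], (∀ k ∈ p.2.1, k ∈ d.gM) → (∀ k ∈ p.2.2, k ∈ d.gM) →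
      clo f p.2.1 ≤ 𝐍(Q) → clo f p.2.2 ≤ 𝐍(Q) := fun p hp l1 l2 l => clo_le.2 fun k hk => by
    obtain ⟨b1, -, b3, b4⟩ := h.o2.gB p hp
    have r := ev_mem_clo_of_wordIn (f := f) b1
    have kM := h.gM l2 (ev_mem_clo f hk)
    obtain ⟨P, p1, -, p2⟩ := h.exQ (h.gM l1 r) 2
    have QP : Q ≤ P := fun q hq => (p1 q).2 ⟨QE hq, nv b3 q (QE hq),
      (QV _ (nv b3 q (QE hq))).1 (nu (l r) (pow_mem (l r) 2) q hq)⟩
    have kP := ex p2 k (l2 k hk) ((b4 k hk).1.imp_right fun o => ⟨rfl, o⟩)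
    refine mem_normalizer_of_conj_mem fun q hq => ?_
    have m := norm_mem' kP (QP hq)
    have m2 : ev f k * q * (ev f k)⁻¹ * (ev f k * q * (ev f k)⁻¹) ∈ zpowers z := by
      simpa [mul_assoc] using norm_mem' (nzp kM.1) (sq q hq)
    obtain ⟨y, y1, y2⟩ := EQ _ ((p1 _).1 m).1
    rcases h.mE (QE y1) with v | ⟨i, hi, a⟩
    · have := norm_mem kM.2 (mul_mem v y2)
      rw [mul_inv_cancel_left, show (ev f k)⁻¹ * (ev f k * q * (ev f k)⁻¹) * ev f k = q by group] at this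
      exact UQ (norm_mem' (h.MU kM) ⟨this, (QV q this).1 hq⟩)
    have e := h.sqc a (h.sqV (QE y1)) y2
    have c := h.cmv a (h.sqV (QE y1)) y2
    have u := ((p1 _).1 (mul_mem (inv_mem (QP y1)) m)).2.2
    rw [mul_inv_cancel_left] at e
    rw [(h.nnv y2 _ _).2] at u
    rw [e] at m2
    simpa using mul_mem y1 ((QV _ y2).2 (((b4 k hk).2 i hi).sp (h.lt y2) |>.resolve_right fun o => o.elim
      (fun n => n (c.2 ▸ (h.zp c.1).1 (by simpa only [inv_mul_cancel_left] using mul_mem (inv_mem (sq y y1)) m2))) fun n => n u))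
  have n1 := nB _ List.mem_cons_self (by simp +contextual [Dt.gM, lapp_eq]) (by simp +contextual [Dt.gM, lapp_eq]) nA
  have n2 := nB (d.r2, lapp d.GA d.G1, d.G2) (by simp) (by simp +contextual [Dt.gM, lapp_eq, or_imp])
    (by simp +contextual [Dt.gM, lapp_eq]) (clo_le.2 fun w hw => (List.mem_append.1 (lapp_eq _ _ ▸ hw)).elim
      (clo_le.1 nA w) (clo_le.1 n1 w))
  refine ⟨Q, h, QE, QV, EQ, sq, h.card_M.2 ▸ sup_le (clo_le.2 fun w hw => ?_) fun e he =>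
    mem_normalizer_of_conj_mem fun q hq => by
      simpa [commutatorElement_def] using mul_mem (UQ (h.cVE he (QE hq))) hq⟩
  simp only [Dt.gM, lapp_eq, List.mem_append] at hw
  exact hw.elim (clo_le.1 nA w) fun o => o.elim (clo_le.1 n1 w) (clo_le.1 n2 w)

end Fn

end CF.RF
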