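import Cfsg.Agent.RF.G
import Cfsg.Agent.RF.FC

/-! The second checks, for the two modules. -/

set_option autoImplicit false
set_option maxRecDepth 1000000
set_option synthInstance.maxSize 100000
set_option maxHeartbeats 2000000

namespace CF.RF

theorem ok2C : Ok2 dC := ⟨by simpa [dC] using ⟨okT, okO⟩, by decide +kernel, by decide +kernel, by decide +kernel,
  by decide +kernel, by decide +kernel, by decide +kernel, by decide +kernel, by decide +kernel, by decide +kernel,
  by decide +kernel, by decide +kernel, by decide +kernel, by decide +kernel, by decide +kernel, by decide +kernel,
  by decide +kernel, by decide +kernel, by decide +kernel, by decide +kernel⟩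

theorem ok2G : Ok2 dG := ⟨by simpa [dG] using okS, by decide +kernel, by decide +kernel, by decide +kernel,
  by decide +kernel, by decide +kernel, by decide +kernel, by decide +kernel, by decide +kernel, by decide +kernel,
  by decide +kernel, by decide +kernel, by decide +kernel, by decide +kernel, by decide +kernel, by decide +kernel,
  by decide +kernel, by decide +kernel, by decide +kernel, by decide +kernel⟩

end CF.RF
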