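import Cfsg.Agent.RF.G

/-! The extraspecial subgroup is strongly closed in the centraliser. -/

set_option autoImplicit false
set_option maxRecDepth 1000000
set_option linter.unusedSectionVars false

namespace CF.RF
open Cfsg Subgroup CF.Loc CF.Even CF.LX CF.Comp CF.Dce CF.Comp.Mat CF.J4 CF.JP
open scoped commutatorElement

variable {G : Type*} [Group G]

theorem SV_mono {V : Subgroup G} {ν : G → ℕ} {C : Co 11 V ⊥ ν} {a b : ℕ} (e : a &&& b = a) : SV C b ≤ SV C a :=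
  fun v hv => ⟨hv.1, by rw [← e, Nat.and_comm a, ← Nat.and_assoc, hv.2, Nat.zero_and]⟩

theorem SV_and {V : Subgroup G} {ν : G → ℕ} {C : Co 11 V ⊥ ν} (a b : ℕ) : SV C (a &&& b) = SV C a ⊔ SV C b :=
  le_antisymm (SV_le fun j _ q v hv e => by
    rw [Nat.testBit_and, Bool.and_eq_false_iff] at q
    exact q.elim (fun q => mem_sup_left ⟨hv, e ▸ two_and q⟩) fun q => mem_sup_right ⟨hv, e ▸ two_and q⟩)
    (sup_le (SV_mono (by rw [Nat.and_comm, ← Nat.and_assoc, Nat.and_self])) (SV_mono (by rw [Nat.and_assoc, Nat.and_self])))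

theorem zc {z c n : G} (hc : c ∈ 𝐂₁(z)) (hn : n ∈ zpowers z) : n * c = c * n :=
  (centralizer_zpowers z ▸ hc : c ∈ 𝐂(zpowers z)) n hn

theorem inv3 {a b c : G} (ha : a * a = 1) (hb : b * b = 1) (hc : c * c = 1) (h1 : a * b * c * (a * b * c) = 1)
    (h2 : a * b * c * c = c * (a * b * c)) : a * b = b * a := by
  rw [mul_assoc (a * b), ← h2, mul_assoc (a * b) c c, hc, mul_one] at h1
  rw [← inv_eq_of_mul_eq_one_right h1, mul_inv_rev, inv_eq_of_mul_eq_one_right ha, inv_eq_of_mul_eq_one_right hb]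

namespace Cf0
variable [Finite G] {T V D : Subgroup G} {x v : G} (h : Cf0 T V D x v)
include h

theorem ui : (x * v)⁻¹ = x * v := inv_eq_of_mul_eq_one_right h.uu
theorem eaW : EA (W1 V D x) := fun a ha => h.eW a (h.WW ha)
theorem WT : W1 V D x ≤ T := h.WD.trans h.DT
theorem uV {y : G} (hy : y ∈ D ⊓ V) : x * v * y * (x * v)⁻¹ ∈ W1 V D x := h.u1 ▸ conj_mem_cj _ hy
theorem uW {y : G} (hy : y ∈ W1 V D x) : x * v * y * (x * v)⁻¹ ∈ D ⊓ V := h.u2 ▸ conj_mem_cj _ hy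
theorem uc (y : G) : x * v * (x * v * y * (x * v)⁻¹) * (x * v)⁻¹ = y := by
  rw [show x * v * (x * v * y * (x * v)⁻¹) * (x * v)⁻¹ = x * v * (x * v) * y * (x * v * (x * v))⁻¹ by group, h.uu]
  group
theorem uf {y : G} (hy : y ∈ II V D x) : x * v * y * (x * v)⁻¹ = y := by rw [← h.uI y hy, mul_inv_cancel_right]

theorem cmu {y a : G} (hy : y ∈ D ⊓ V) (ha : a ∈ D ⊓ V) :
    ⁅y, x * v * a * (x * v)⁻¹⁆ = ⁅x * v * y * (x * v)⁻¹, a⁆ := by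
  rw [← h.uf (h.VW hy (h.uV ha)), conjugate_commutatorElement, h.uc]

end Cf0

namespace Fq
variable [Finite G] {d : Dt} {V : Subgroup G} {ν : G → ℕ} {θ : G → Pm} {f : ℕ → G} {z : G} {Q : Subgroup G}
  (h : Fq d V ν θ f z Q)
include h

local notation "T" => TT V f
local notation "E" => EE d V f
local notation "N" => 𝐍(V)
local notation "H" => 𝐂₁(z)
local notation "U" => SV h.co d.mu

theorem UQ : U ≤ Q := fun u hu => (h.QV u hu.1).2 hu.2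
theorem mU {g : G} (a : g ∈ Q) (b : g ∈ V) : g ∈ U := ⟨b, (h.QV g b).1 a⟩
theorem QT : Q ≤ T := h.QE.trans h.ET
theorem QH : Q ≤ H := h.QE.trans h.EH
theorem TQ : T ≤ 𝐍(Q) := h.TM.trans h.MQ
theorem cQ {a b : G} (ha : a ∈ Q) (hb : b ∈ Q) : ⁅a, b⁆ ∈ zpowers z := sq_cm h.sq ha hb
theorem zQ : z ∈ Q := h.UQ (h.zU (mem_zpowers z))

theorem acj' {g k : G} {x : ℕ} {w : List ℕ} (b : Ac 11 V ν k (d.ev w)) (a : Ac 11 V ν g x) :
    Ac 11 V ν (k⁻¹ * g * k) (d.cj w x) := h.co.cd.mul' (h.co.cd.mul' (h.acv (ev_winv f w ▸ h.ac (winv w)) (by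
      simpa [mul_assoc] using norm_mem' (h.ac w).1 (inv_mem (h.div (h.ac w) b)))) a) b

theorem pm {a b g : G} (ha : a ∈ V) (hb : b ∈ V) (e : g * a * g⁻¹ = b) : d.PM.testBit (ν b) = d.PM.testBit (ν a) := by
  have p : ∀ {a b g : G}, a ∈ V → b ∈ V → g * a * g⁻¹ = b → d.PM.testBit (ν a) = true → d.PM.testBit (ν b) = true :=
    fun {a b g} ha hb e q => by
      obtain ⟨n, -, rfl⟩ := h.pm1 ha q
      rw [show g * (n⁻¹ * z * n) * g⁻¹ = g * n⁻¹ * z * (g * n⁻¹)⁻¹ by group] at e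
      exact e ▸ h.pm2 (e ▸ hb)
  exact Bool.eq_iff_iff.2 ⟨p (g := g⁻¹) hb ha (by rw [← e]; group), p ha hb e⟩

variable {c : Cn} {D : Subgroup G} {x v : G} (k : Cg h.co d c (TT V f) D x v)
include k

local notation "W" => W1 V D x
local notation "I" => II V D x
local notation "u" => x * v

theorem oc : OkC d c := h.o2.oc c k.mem
theorem U1 : U ≤ D ⊓ V := k.eV ▸ SV_mono (h.oc k).c8.2.1
theorem zI : z ∈ I := k.eI ▸ ⟨h.zV, h.ez ▸ (h.oc k).c8.1⟩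

theorem WE {w : G} (hw : w ∈ W) (e : w ∈ E) : w ∈ I ∨ ∃ b ∈ c.S, b ∈ d.EI ∧ Ac 11 V ν w (d.mx b) :=
  (k.s1 w hw).imp (k.mI hw) fun ⟨b, hb, a⟩ => ⟨b, hb, h.iE' a ((h.oc k).lt b hb) e, a⟩

theorem dec {w q : G} (hw : w ∈ W) (hq : q ∈ Q) (e : q⁻¹ * w ∈ V) : q⁻¹ * w ∈ D ⊓ V := by
  rcases h.WE k hw (by simpa using mul_mem (h.QE hq) (h.VE e)) with m | ⟨b, hb, b1, a⟩
  · exact mul_mem (inv_mem (h.U1 k (h.mU hq (by simpa using V.mul_mem m.1.2 (inv_mem e))))) m.1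
  have s := k.eaW w hw
  have m := h.cmv a (s ▸ one_mem V) e
  have t := h.sqc a (s ▸ one_mem V) e
  rw [s, one_mul, ← h.ea.inv e, show w * (q⁻¹ * w)⁻¹ = q by group, h.ea.inv e] at t
  exact k.eV ▸ ⟨e, (((h.oc k).c5 b hb b1).sp (h.lt e)).resolve_right (not_not.2 (m.2 ▸ (h.zp m.1).1 (t ▸ h.sq q hq)))⟩

theorem a1 {p : ℕ × List ℕ} (hp : p ∈ c.F) {y : G} (hy : y ∈ V) (e : ν y = p.1) :
    ∃ q ∈ Q, ∃ i ∈ I, q * i = u * y * u⁻¹ := by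
  obtain ⟨⟨-, o1, o0⟩, o2, o3, o4⟩ := (h.oc k).c6 p hp
  have yU : y ∈ U := ⟨hy, e ▸ o1⟩
  have wW := k.uV (h.U1 k yU)
  have P : ∀ a ∈ D ⊓ V, ν ⁅a, u * y * u⁻¹⁆ % 1024 ∈ p.2 := fun a ha => by
    rw [k.cmu ha (h.U1 k yU)]
    rcases k.s1 _ (k.uV ha) with m | ⟨b, hb, A⟩
    · rw [commutatorElement_eq_one_iff_mul_comm.2 (h.ea.comm _ m _ hy), h.co.one]; exact o0
    have m := h.cmv A (k.eaW _ (k.uV ha) ▸ one_mem V) hy
    rw [← commutatorElement_inv, h.co.inv m.1, m.2, e]; exact o2 b hb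
  generalize u * y * u⁻¹ = w at wW P
  have sW : ∀ w ∈ W, w * w ∈ V := fun w hw => k.eaW w hw ▸ one_mem V
  rcases k.s1 w wW with m | ⟨b, hb, A⟩
  · exact ⟨1, one_mem Q, w, k.mI wW m, one_mul w⟩
  have wE := h.iE A (.inr ⟨b, (o3 b hb).resolve_right fun ⟨j, hj, j1, j2⟩ => j2 (by
    obtain ⟨a, ha, ea⟩ := h.co.surj (2 ^ j) (Nat.pow_lt_pow_right one_lt_two hj)
    rw [← ea, ← (h.cmv A (sW w wW) ha).2]; exact P a (k.eV ▸ ⟨ha, ea ▸ two_and j1⟩)), rfl⟩)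
  obtain ⟨q, hq, qV⟩ := h.EQ w wE
  have m := h.dec k wW hq qV
  have m' : q⁻¹ * w ∈ SV h.co c.I ⊔ U := SV_and (C := h.co) _ _ ▸ ⟨qV, (o4.sp (h.lt qV)).resolve_right fun n => by
    rcases n with n | ⟨b, hb, n⟩ | ⟨b, hb, b1, n⟩
    · exact n (k.eV ▸ m : _ ∈ SV h.co c.V1).2
    · obtain ⟨w', hw', B⟩ := k.s2 b hb
      have t := h.cmv B (sW _ hw') qV
      refine n (t.2 ▸ (h.QV _ t.1).1 ?_)
      rw [show ⁅q⁻¹ * w, w'⁆ = q⁻¹ * ⁅w, w'⁆ * q * ⁅q⁻¹, w'⁆ by simp only [commutatorElement_def]; group,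
        commutatorElement_eq_one_iff_mul_comm.2 (k.eaW.comm w wW w' hw'), mul_one, inv_mul_cancel, one_mul]
      exact cm_l (inv_mem hq) (h.TQ (k.WT hw'))
    · obtain ⟨w', hw', B⟩ := k.s2 b hb
      obtain ⟨q', hq', qV'⟩ := h.EQ w' (h.iE B (.inr ⟨b, b1, rfl⟩))
      have t := h.cmv B (sW _ hw') qV
      have t' := h.cmv A (sW _ wW) qV'
      have z1 := h.cQ hq hq'
      have z2 : ⁅q, q'⁆ = ⁅q⁻¹ * w, w'⁆ * ⁅q'⁻¹ * w', w⁆ := by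
        have c1 := commutatorElement_eq_one_iff_mul_comm.2 (k.eaW.comm w wW w' hw')
        have c2 := commutatorElement_eq_one_iff_mul_comm.2 (h.ea.comm _ qV _ qV')
        have i1 := k.eaW.comm _ wW _ (k.VW m hw').2
        have i2 := k.eaW.comm _ hw' _ (k.VW (h.dec k hw' hq' qV') wW).2
        have e1 : q = w * (q⁻¹ * w) := by rw [← h.ea.inv qV]; group
        have e2 : q' = w' * (q'⁻¹ * w') := by rw [← h.ea.inv qV']; group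
        have f1 := h.ea.inv t'.1
        generalize q⁻¹ * w = a at *
        generalize q'⁻¹ * w' = a' at *
        rw [e1, e2, show ⁅w * a, w' * a'⁆ = w * (⁅a, w'⁆ * (w' * ⁅a, a'⁆ * w'⁻¹)) * w⁻¹ * (⁅w, w'⁆ *
          (w' * ⁅a', w⁆⁻¹ * w'⁻¹)) by simp only [commutatorElement_def]; group, c1, c2, f1, i2, mul_one, mul_inv_cancel,
          mul_one, i1, mul_inv_cancel_right, mul_inv_cancel_right, one_mul]
      refine n ?_
      have := (h.zp (h.zV' z1)).1 z1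
      rw [z2, h.lam t.1 t'.1] at this
      rw [← t.2, Nat.eq_of_xor_eq_zero this]
      exact P _ (h.dec k hw' hq' qV')⟩
  obtain ⟨i, hi, a, ha, e⟩ := (mem_sup_of_le_normalizer' (fun g hg => h.VU hg.1 : SV h.co c.I ≤ _)).1 m'
  refine ⟨q * a, mul_mem hq (h.UQ ha), i, k.eI ▸ hi, ?_⟩
  rw [mul_assoc, h.ea.comm _ ha.1 _ hi.1, e, mul_inv_cancel_left]

theorem a2 : U ≤ cj[u] (W ⊓ (Q ⊔ I)) := SV_le fun j hj q y hy e => mem_cj.2 <| by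
  rw [show u⁻¹ * y * u = u * y * u⁻¹ by rw [k.ui]]
  have yU : y ∈ U := ⟨hy, e ▸ two_and q⟩
  refine ⟨k.uV (h.U1 k yU), ((h.oc k).c7 j hj q).elim (fun o => ?_) fun ⟨p, hp, o⟩ => ?_⟩
  · rw [k.uf (k.eI ▸ ⟨hy, e ▸ two_and o⟩)]; exact mem_sup_left (h.UQ yU)
  · obtain ⟨q, hq, i, hi, t⟩ := h.a1 k hp hy (e.trans o.symm)
    exact t ▸ mul_mem (mem_sup_left hq) (mem_sup_right hi)

theorem IE : I ≤ E := fun _ a => h.VE a.1.2

theorem a3 : W ⊓ E = cj[u] (U ⊔ I) := by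
  classical
  have l : cj[u] (U ⊔ I) ≤ W ⊓ E := by
    rw [cj_sup, cj_eq_self (centralizer_le_normalizer _ k.uI)]
    refine sup_le ((cj_mono _ (h.a2 k)).trans ?_) (le_inf inf_le_right (h.IE k))
    rw [← cj_mul, k.uu, cj_one]
    exact inf_le_inf_left _ (sup_le h.QE (h.IE k))
  refine (eq_of_le_of_card_ge l ?_).symm
  have := card_le_rel (A := W ⊓ E) (Z := V) (r := Ac 11 V ν) (fun g _ k _ x => h.div)
    (L := mo 11 :: (c.S.filter (· ∈ d.EI)).map d.mx) fun g hg => (h.WE k hg.1 hg.2).elim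
      (fun q => ⟨_, List.mem_cons_self, h.mo_iff.2 q.1.2⟩) fun ⟨i, hi, i1, a⟩ =>
        ⟨_, List.mem_cons_of_mem _ (List.mem_map_of_mem (List.mem_filter.2 ⟨hi, decide_eq_true i1⟩)), a⟩
  rw [card_cj, sup_comm, k.eI, ← SV_and, h.card_SV]
  refine this.trans (le_trans ?_ (h.oc k).c9)
  rw [List.length_cons, List.length_map, ← h.card_SV, ← k.eI]
  exact Nat.mul_le_mul_left _ (card_le_of_le fun g hg => k.mI hg.1.1 hg.2)

theorem a4 {w : G} (hw : w ∈ W ⊓ E) : ∃ q ∈ Q ⊓ W, ∃ i ∈ I, q * i = w := by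
  have l : cj[u] (U ⊔ I) ≤ Q ⊔ I := by
    rw [cj_sup, cj_eq_self (centralizer_le_normalizer _ k.uI)]
    refine sup_le ((cj_mono _ (h.a2 k)).trans ?_) le_sup_right
    rw [← cj_mul, k.uu, cj_one]
    exact inf_le_right
  obtain ⟨q, hq, i, hi, e⟩ := (mem_sup_of_le_normalizer fun g hg => h.TQ (h.ET (h.IE k hg))).1 (l (h.a3 k ▸ hw))
  exact ⟨q, ⟨hq, by
    have := (W).mul_mem hw.1 (inv_mem hi.2); rwa [← e, mul_inv_cancel_right] at this⟩, i, hi, e⟩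

theorem b1 (hx : x ∈ H) : cj[u] U ≤ Q := by
  rcases (h.oc k).c10 with o | ⟨o1, o2, o3⟩
  · refine (cj_mono _ (h.a2 k)).trans ?_
    rw [← cj_mul, k.uu, cj_one, k.eI]
    exact inf_le_right.trans (sup_le le_rfl ((SV_mono (by rw [Nat.and_comm, o])).trans h.UQ))
  obtain ⟨g1, g2, g3, -⟩ := h.o2.gB _ List.mem_cons_self
  obtain ⟨s, s1, s2, s3⟩ : ∃ s, Ac 11 V ν s (d.ev d.r1) ∧ s ∈ H ⊓ N ∧ s ^ 3 = 1 := by
    have m : ev f d.r1 ^ 3 ∈ V := h.mo_iff.1 (g2 ▸ ev_wpow f d.r1 3 ▸ h.ac _)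
    refine ⟨ev f d.r1 * ev f d.r1 ^ 3, h.acv (h.ac _) (by simpa using m),
      mul_mem (h.AM (ev_mem_clo_of_wordIn g1)) (h.TM (h.VT m)), ?_⟩
    have := h.ea _ m
    generalize ev f d.r1 = r at *
    rw [show (r * r ^ 3) ^ 3 = r ^ 3 * r ^ 3 * (r ^ 3 * r ^ 3) by group, this, one_mul]
  have s4 : Ac 11 V ν (s ^ 2) (d.ev (wpow d.r1 2)) := h.acv (h.ac _) (by
    have := h.div (h.ac _) s1
    simpa [ev_wpow, pow_two, mul_assoc] using mul_mem (norm_mem (h.ac d.r1).1 this) this)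
  have s5 := pow_mem s2 2
  have sI : s⁻¹ ∈ 𝐍(I) := mem_normalizer_of_conj_mem fun i hi => by
    rw [k.eI] at hi ⊢
    rw [inv_inv]
    exact ⟨norm_mem s2.2 hi.1, s1.2 i hi.1 ▸ (o2.sp (h.lt hi.1) hi.2).1⟩
  have nV : ∀ q ∈ E, nm s (s ^ 2) q ∈ V := fun q hq => (h.mE hq).elim
    (fun m => mul_mem (mul_mem m (norm_mem s2.2 m)) (norm_mem s5.2 m)) fun ⟨i, hi, a⟩ => h.mo_iff.1
      (g3 i hi ▸ h.co.cd.mul' (h.co.cd.mul' a (h.acj' s1 a)) (h.acj' s4 a))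
  have sW : s⁻¹ ∈ 𝐍(W ⊓ E) := mem_normalizer_of_conj_mem fun w hw => by
    obtain ⟨q, ⟨q1, q2⟩, i, hi, rfl⟩ := h.a4 k hw
    rw [show s⁻¹ * (q * i) * s⁻¹⁻¹ = s⁻¹ * q * s * (s⁻¹ * i * s⁻¹⁻¹) by group]
    refine mul_mem ⟨?_, norm_mem (h.ME s2) (h.QE q1)⟩ ⟨(norm_mem' sI hi).2, h.IE k (norm_mem' sI hi)⟩
    rcases h.WE k q2 (h.QE q1) with m | ⟨b, hb, b1, A⟩
    · simpa using (norm_mem' sI m).2
    obtain ⟨a, ha, e, t⟩ := o1 b hb b1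
    obtain ⟨w', hw', B⟩ := k.s2 a ha
    have m := h.div B (e ▸ h.acj' s1 A)
    have qq := k.eaW q q2
    have p1 := norm_mem (h.MQ s2) q1
    have p2 := norm_mem (h.MQ s5) q1
    have n := h.mU (mul_mem (mul_mem q1 p1) p2) (nV q (h.QE q1))
    have nz : nm s (s ^ 2) q ∈ zpowers z := (h.zp n.1).2 (((h.o2.fp.sp (h.lt n.1)).resolve_left
      (not_not.2 n.2)).resolve_right (not_not.2 (by
        have c := mul_mem (inv_mem n.1) (norm_mem s2.2 n.1)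
        rw [cv_eq, ← s1.2 _ n.1, ← h.co.inv n.1, h.co.inv n.1, ← h.co.inv n.1, ← h.co.mul _ (inv_mem n.1) _
          (norm_mem s2.2 n.1), ← h.zp c, show (nm s (s ^ 2) q)⁻¹ * (s⁻¹ * nm s (s ^ 2) q * s) =
            ⁅(s⁻¹ * q * s * ((s ^ 2)⁻¹ * q * s ^ 2))⁻¹, q⁻¹⁆ * (q⁻¹ * ((s ^ 3)⁻¹ * q * s ^ 3)) by
              simp only [nm, commutatorElement_def]; group, s3]
        simpa using h.cQ (inv_mem (mul_mem p1 p2)) (inv_mem q1))))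
    have e1 : s⁻¹ * q * s * (s⁻¹ * q * s) = 1 := by simp [mul_assoc, ← mul_assoc q, qq]
    have c1 := inv3 qq e1 (by simp [mul_assoc, ← mul_assoc q, qq]) (h.ea _ n.1) (zc (h.QH p2) nz)
    have ww := k.eaW w' hw'
    have c2 := h.sqc B (ww ▸ one_mem V) m
    have c3 := k.eaW.comm q q2 w' hw'
    rw [mul_inv_cancel_left, e1, ww, one_mul] at c2
    have := (k.eI ▸ ⟨m, (t.sp (h.lt m)).resolve_right fun o => o.elim (fun n => n ((h.fix_iff A m).2 (by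
      rw [mul_assoc, ← c1, ← mul_assoc, ← mul_assoc q, inv_eq_of_mul_eq_one_right ww, c3]))) fun n => n
        ((h.fix_iff B m).2 (commutatorElement_eq_one_iff_mul_comm.1 c2.symm))⟩ : w'⁻¹ * (s⁻¹ * q * s) ∈ I)
    have := (W).mul_mem hw' this.2
    rwa [mul_inv_cancel_left] at this
  have uH : u ∈ H := mul_mem hx (h.VH k.vV)
  have uI : u ∈ 𝐍(I) := centralizer_le_normalizer _ k.uI
  have UI : U ⊔ I ≤ D ⊓ V := sup_le (h.U1 k) inf_le_left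
  have tau : ∀ t X, Ac 11 V ν t X → X ∈ [d.ev d.r1, d.ev (wpow d.r1 2)] → t ∈ H → t⁻¹ ∈ 𝐍(I) → t⁻¹ ∈ 𝐍(W ⊓ E) →
      ∀ p ∈ c.F, ∀ y ∈ V, ν y = p.1 → u⁻¹ * (t⁻¹ * (u * y * u⁻¹) * t) * u ∈ U := fun t X A hX tH tI tW p hp y hy e => by
    have yU : y ∈ U := ⟨hy, e ▸ ((h.oc k).c6 p hp).1.2.1⟩
    have m : u⁻¹ * (t⁻¹ * (u * y * u⁻¹) * t) * u ∈ U ⊔ I := mem_cj.1 (h.a3 k ▸ by
      simpa only [inv_inv] using norm_mem' tW (h.a3 k ▸ conj_mem_cj _ (mem_sup_left yU)))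
    have m1 := UI m
    refine ⟨m1.2, (((o3 p hp X hX).sp (h.lt m1.2)).resolve_right fun o => o.elim
      (fun n => n (k.eV ▸ m1 : _ ∈ SV h.co c.V1).2) fun ⟨i, hi, i1, n⟩ => n ?_)⟩
    obtain ⟨i, iV, rfl⟩ := h.co.surj i ((by decide : ∀ i ∈ ([0, 1024, 256, 512, 32, 288] : List ℕ), i < 2 ^ 11) i hi)
    have iI : i ∈ I := k.eI ▸ ⟨iV, i1⟩
    have i2 := norm_mem' tI iI
    rw [inv_inv] at i2
    rw [← A.2 i iV, ← h.co.mul _ m1.2 _ i2.1.2, ← e, ← h.co.mul _ hy _ iV]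
    refine h.pm (g := u⁻¹ * t⁻¹ * u) (mul_mem hy iV) (mul_mem m1.2 i2.1.2) ?_
    have e1 := k.uf iI
    have e2 := k.uI _ i2
    generalize u = a at *
    calc _ = a⁻¹ * (t⁻¹ * (a * y * a⁻¹) * t) * (t⁻¹ * (a * i * a⁻¹) * t * a) := by group
      _ = _ := by rw [e1, e2, mul_assoc _ a]
  refine cj_le_iff_forall.2 fun y hy => ?_
  suffices U ≤ cj[u⁻¹] Q by simpa only [inv_inv] using mem_cj.1 (this hy)
  refine SV_le fun j hj q y hy e => mem_cj.2 ?_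
  rw [inv_inv]
  have yU : y ∈ U := ⟨hy, e ▸ two_and q⟩
  refine ((h.oc k).c7 j hj q).elim (fun o => ?_) fun ⟨p, hp, o⟩ => ?_
  · rw [k.uf (k.eI ▸ ⟨hy, e ▸ two_and o⟩)]; exact h.UQ yU
  have t1 := tau s _ s1 (by simp) s2.1 sI sW p hp y hy (e.trans o.symm)
  have t2 := tau _ _ s4 (by simp) s5.1 (inv_pow s 2 ▸ pow_mem sI 2) (inv_pow s 2 ▸ pow_mem sW 2) p hp y hy (e.trans o.symm)
  have wE : u * y * u⁻¹ ∈ W ⊓ E := h.a3 k ▸ conj_mem_cj _ (mem_sup_left yU)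
  have n1 := mul_mem (mul_mem yU t1) t2
  have n2 : nm s (s ^ 2) (u * y * u⁻¹) ∈ U := by
    have n3 := k.uI _ (k.mI (mul_mem (mul_mem wE (norm_mem (inv_mem_iff.1 sW) wE))
      (norm_mem (pow_mem (inv_mem_iff.1 sW) 2) wE)).1 (nV _ wE.2))
    convert n1 using 1
    rw [nm, ← inv_mul_cancel_left u (_ * _ * _), ← n3]
    group
  obtain ⟨q, ⟨q1, q2⟩, i, hi, e⟩ := h.a4 k wE
  rw [← e] at n2 ⊢
  have iI := k.eI ▸ hi
  have n4 := h.mU (mul_mem (mul_mem q1 (norm_mem (h.MQ s2) q1)) (norm_mem (h.MQ s5) q1)) (nV q (h.QE q1))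
  have i1 := norm_mem s2.2 iI.1
  have i2 := norm_mem s5.2 iI.1
  refine mul_mem q1 (h.UQ ⟨iI.1, (o2.sp (h.lt iI.1) iI.2).2 ?_⟩)
  rw [Dt.nv, ← s1.2 i iI.1, ← s4.2 i iI.1, ← h.co.mul _ iI.1 _ i1, ← h.co.mul _ (mul_mem iI.1 i1) _ i2]
  refine (?_ : _ ∈ U).2
  have c1 := k.eaW.comm _ hi.2 _ (norm_mem (inv_mem_iff.1 sW) ⟨q2, h.QE q1⟩).1
  have c2 := k.eaW.comm _ ((W ⊓ E).mul_mem ⟨hi.2, h.IE k hi⟩ (norm_mem (inv_mem_iff.1 sW) ⟨hi.2, h.IE k hi⟩)).1 _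
    (norm_mem (pow_mem (inv_mem_iff.1 sW) 2) ⟨q2, h.QE q1⟩).1
  have := mul_mem (inv_mem n4) n2
  rwa [show nm s (s ^ 2) (q * i) = q * (i * (s⁻¹ * q * s)) * (s⁻¹ * i * s) * ((s ^ 2)⁻¹ * q * s ^ 2) *
    ((s ^ 2)⁻¹ * i * s ^ 2) by simp only [nm]; group, c1, show ∀ a b c e g k : G, a * (b * c) * e * g * k =
      a * b * (c * e * g) * k from fun _ _ _ _ _ _ => by group, c2, show ∀ a b c e g : G, a * b * (c * e) * g =
        a * b * c * (e * g) from fun _ _ _ _ _ => by group, inv_mul_cancel_left] at this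

theorem b2 (hx : x ∈ H) {g : G} (hg : g ∈ D) : x * g * x⁻¹ ∈ Q ↔ g ∈ Q := by
  have uH : u ∈ H := mul_mem hx (h.VH k.vV)
  have b := h.b1 k hx
  have l : U ⊔ cj[u] U ≤ Q := sup_le h.UQ b
  have nu : u ∈ 𝐍(U ⊔ cj[u] U) := mem_normalizer_of_cj_le (by rw [cj_sup, ← cj_mul, k.uu, cj_one, sup_comm])
  have nv : v ∈ 𝐍(U ⊔ cj[u] U) := mem_normalizer_of_conj_mem fun a ha => by
    simpa [commutatorElement_def] using mul_mem (mem_sup_left (h.cVE k.vV (h.QE (l ha)))) ha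
  have key : ∀ g ∈ D, g ∈ Q → x ∈ cm (U ⊔ cj[u] U) g := fun g hg gQ => by
    have e : x * v * x⁻¹ = u * v * u⁻¹ := by group
    refine k.mem_x ⟨nv, mem_sup_left (h.cVE k.vV (h.QE gQ))⟩ ⟨e ▸ mul_mem (mul_mem nu nv) (inv_mem nu), ?_⟩
    have m := h.tU (k.DT (norm_mem k.uD hg)) fun y hy => by
      have := norm_mem (nzp uH) (h.cQ (inv_mem (b (conj_mem_cj _ hy))) (inv_mem gQ))
      rwa [show u⁻¹ * ⁅(u * y * u⁻¹)⁻¹, g⁻¹⁆ * u = y⁻¹ * ((u⁻¹ * g * u)⁻¹ * y * (u⁻¹ * g * u)) by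
        simp only [commutatorElement_def]; group] at this
    have := conj_mem_cj u (h.cVE k.vV m)
    rw [conjugate_commutatorElement, ← e, show u * (u⁻¹ * g * u) * u⁻¹ = g by group] at this
    exact mem_sup_right this
  refine ⟨fun a => ?_, fun a => by simpa [commutatorElement_def] using mul_mem (l (key g hg a).2) a⟩
  simpa [commutatorElement_def, mul_assoc] using mul_mem (l (inv_mem (key _ (norm_mem' k.xD hg) a)).2) a

omit k in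
theorem scl {a g : G} (ha : a ∈ Q) (hg : g ∈ H) (e : g * a * g⁻¹ ∈ T) : g * a * g⁻¹ ∈ Q := by_contra fun n => by
  obtain ⟨D, x, v, k, hx, y, hy, b⟩ := exists_cf h.sylH h.ea h.VT h.TN (fun g _ => h.wc g) h.MQ
    ⟨a, ha, h.QT ha, g, hg, e, n⟩
  obtain ⟨c, k⟩ := h.cls h.o2.ne h.o2.oc k
  exact b (h.b2 k hx hy)

end Fq

end CF.RF
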